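/-
The core of Hall-Higman's Theorem B with the irreducible module in its conclusion.
-/
import Cfsg.Agent.Lib.HallHigman.Core

set_option autoImplicit false

namespace Cfsg.Agent.Lib.HallHigman.CoreFull

open Module Polynomial Cfsg.Agent.Lib.HallHigman.Irr Cfsg.Agent.Lib.HallHigman.FrobFree
  Cfsg.Agent.Lib.HallHigman.Critical Cfsg.Agent.Lib.HallHigman.DegPower
  Cfsg.Agent.Lib.HallHigman.Clifford Cfsg.Agent.Lib.HallHigman.Jordan
  Cfsg.Agent.Lib.HallHigman.Block Cfsg.Agent.Lib.HallHigman.Core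

universe u v w

variable {K : Type u} [Field K] {p : ℕ} [hp : Fact p.Prime] [CharP K p]
variable {H : Type w} [Group H] {V : Type v} [AddCommGroup V] [Module K V]

/-- The core of Hall-Higman's Theorem B, with the module in the exceptional case. -/
theorem core_full [IsAlgClosed K] [Finite H] [FiniteDimensional K V] {q : ℕ} [Fact q.Prime] (hq : (q : K) ≠ 0)
    (hpq : p ≠ q)
    (ρ : H →* End K V) (Q : Subgroup H) (hQ : IsPGroup q Q)
    (x : H) (hx : x ∈ Subgroup.normalizer (Q : Set H)) (n : ℕ) (hord : orderOf x = p ^ (n + 1))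
    (hCZ : ∀ g ∈ Q, g * x ^ p ^ n = x ^ p ^ n * g → ∀ h ∈ Q, g * h = h * g)
    (hgen : ∀ U : Submodule K V, IsInv ρ Q U → (∀ u ∈ U, ρ (x ^ p ^ n) u = u) →
      ∀ g ∈ Q, ∀ u ∈ U, ρ g u = u)
    {U₁ : Submodule K V} (hU₁ : IsIrr ρ Q U₁) (hnt : ∃ g ∈ Q, ∃ u ∈ U₁, ρ g u ≠ u)
    (r : ℕ) (hr : (ρ x - 1) ^ r = 0) :
    p ^ (n + 1) ≤ r ∨ ∃ (n₀ m a : ℕ) (U : Submodule K V), 1 ≤ n₀ ∧ n₀ ≤ n + 1 ∧ 1 ≤ m ∧ p ^ n₀ - 1 = q ^ m ∧
      ¬ IsMulCommutative Q ∧ p ^ (n + 1 - n₀) * (p ^ n₀ - 1) ≤ r ∧ n + 1 = a + n₀ ∧ IsIrr ρ Q U ∧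
      (∀ u ∈ U, ρ (x ^ p ^ a) u ∈ U) ∧ HomNZ ρ Q U₁ U ∧ finrank K U = q ^ m ∧
      ∃ u ∈ U, ((ρ (x ^ p ^ a) - 1) ^ (p ^ n₀ - 2)) u ≠ 0 := by
  classical
  have hpp : p.Prime := hp.out
  have hxfin : IsOfFinOrder x := isOfFinOrder_of_finite x
  set L := p ^ (n + 1) with hL
  have hLpos : 0 < L := pow_pos hpp.pos _
  have hxL : x ^ L = 1 := by
    rw [← hord, pow_orderOf_eq_one]
  have hxn : ∀ i : ℕ, x ^ i ∈ Subgroup.normalizer (Q : Set H) := fun i => Subgroup.pow_mem _ hx i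
  let S : ℕ → Prop := fun i => HomNZ ρ Q (tw ρ (x ^ i) U₁) U₁
  have hrefl : ∀ {W : Submodule K V}, W ≠ ⊥ → HomNZ ρ Q W W := by
    intro W hW
    obtain ⟨a, ha, ha0⟩ := Submodule.exists_mem_ne_zero_of_ne_bot hW
    exact ⟨1, fun a ha => ha, fun g _ a _ => rfl, a, ha, ha0⟩
  have hS0 : S 0 := by
    change HomNZ ρ Q (tw ρ (x ^ 0) U₁) U₁
    rw [pow_zero, tw_one]
    exact hrefl hU₁.ne_bot
  have hSadd : ∀ i j, S i → S j → S (i + j) := by
    intro i j hi hj
    change HomNZ ρ Q (tw ρ (x ^ (i + j)) U₁) U₁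
    rw [pow_add, tw_mul]
    exact HomNZ.trans (hU₁.tw (hxn i)) (hj.tw (hxn i)) hi
  have hSmul : ∀ i k, S i → S (k * i) := by
    intro i k hi
    induction k with
    | zero => simpa using hS0
    | succ k ih =>
      rw [add_mul, one_mul]
      exact hSadd _ _ ih hi
  have hSper : ∀ e w, S (e + L * w) → S e := by
    intro e w h
    change HomNZ ρ Q (tw ρ (x ^ (e + L * w)) U₁) U₁ at h
    rwa [pow_add, pow_mul, hxL, one_pow, mul_one] at h
  have hSL : S L := by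
    change HomNZ ρ Q (tw ρ (x ^ L) U₁) U₁
    rw [hxL, tw_one]
    exact hrefl hU₁.ne_bot
  have hexd : ∃ d, 0 < d ∧ S d := ⟨L, hLpos, hSL⟩
  let d := Nat.find hexd
  obtain ⟨hdpos, hdS⟩ : 0 < d ∧ S d := Nat.find_spec hexd
  have hdmin : ∀ e, e < d → 0 < e → ¬ S e := fun e he he' hS => Nat.find_min hexd he ⟨he', hS⟩
  have hdvd : ∀ i, S i → d ∣ i := by
    intro i hi
    have h1 : S (i + (L - 1) * (i / d * d)) := hSadd _ _ hi (hSmul _ _ (hSmul _ _ hdS))
    have h2 : i + (L - 1) * (i / d * d) = i % d + L * (i / d * d) := by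
      obtain ⟨L', hL'⟩ : ∃ L', L = L' + 1 := ⟨L - 1, by omega⟩
      rw [hL']
      simp only [Nat.add_sub_cancel]
      have h3 := Nat.mod_add_div' i d
      nlinarith [h3]
    rw [h2] at h1
    have h4 := hSper _ _ h1
    by_contra hnd
    have h5 : 0 < i % d := Nat.pos_of_ne_zero (fun h => hnd (Nat.dvd_of_mod_eq_zero h))
    exact hdmin _ (Nat.mod_lt _ hdpos) h5 h4
  obtain ⟨a, ha, hda⟩ := (Nat.dvd_prime_pow hpp).mp (hdvd L hSL)
  have hdivS : ∀ i, S i → p ^ a ∣ i := fun i hi => hda ▸ hdvd i hi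
  have hSa : S (p ^ a) := hda ▸ hdS
  have hdvdL : p ^ a ∣ L := pow_dvd_pow p ha
  obtain ⟨U, hU, htU, hU₁U⟩ := exists_invariant_irr (hxn (p ^ a)) hU₁ hSa
  have hUU₁ : HomNZ ρ Q U U₁ := hU₁U.symm hU₁ hU
  obtain ⟨u₀, hu₀, hu₀0⟩ := Submodule.exists_mem_ne_zero_of_ne_bot hU.ne_bot
  -- independence of the orbit
  have hind : iSupIndep (fun i : Fin (p ^ a) => tw ρ (x ^ (i : ℕ)) U) := by
    apply iSupIndep_of_no_hom (ρ := ρ) (Q := Q)
    · intro i
      exact hU.tw (hxn _)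
    · rintro i j hij hhom
      apply hij
      have hjL : (j : ℕ) ≤ L := (Nat.lt_of_lt_of_le j.2 (Nat.le_of_dvd hLpos hdvdL)).le
      have h1 := hhom.tw (hxn (L - j))
      rw [← tw_mul, ← tw_mul, ← pow_add, ← pow_add, Nat.sub_add_cancel hjL, hxL, tw_one] at h1
      have h2 : S (L - j + i) := by
        change HomNZ ρ Q (tw ρ (x ^ (L - j + i)) U₁) U₁
        exact HomNZ.trans (hU.tw (hxn _)) (hU₁U.tw (hxn _)) (HomNZ.trans hU h1 hUU₁)
      have h3 := hdivS _ h2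
      apply Fin.ext
      have h4 : (i : ℕ) ≡ j [MOD p ^ a] := by
        have e1 : (L - j + i) ≡ 0 [MOD p ^ a] := (Nat.modEq_zero_iff_dvd).mpr h3
        have e2 : (j + (L - j)) ≡ 0 [MOD p ^ a] := by
          rw [Nat.add_sub_cancel' hjL]
          exact (Nat.modEq_zero_iff_dvd).mpr hdvdL
        have e3 : (i + (L - j)) ≡ (j + (L - j)) [MOD p ^ a] := by
          rw [add_comm]
          exact e1.trans e2.symm
        exact Nat.ModEq.add_right_cancel' _ e3
      exact Nat.ModEq.eq_of_lt_of_lt h4 i.2 j.2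
  by_cases haL : a = n + 1
  · -- regular orbit
    left
    subst haL
    have h1 := block_bound ρ x (n + 1) 1 r le_rfl hind htU hu₀
      (by simpa using hu₀0) hr
    simpa using h1
  have han : a ≤ n := by omega
  obtain ⟨n₀, hn₀⟩ : ∃ n₀, n = a + n₀ := ⟨n - a, by omega⟩
  set t := x ^ p ^ a with ht
  have hordt : orderOf t = p ^ (n₀ + 1) := by
    rw [ht, orderOf_pow_of_dvd (pow_ne_zero _ hpp.ne_zero) (by rw [hord]; exact hdvdL), hord, hL, hn₀]
    rw [show a + n₀ + 1 = a + (n₀ + 1) by ring, pow_add]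
    exact Nat.mul_div_cancel_left _ (pow_pos hpp.pos a)
  have hyt : x ^ p ^ n = t ^ p ^ n₀ := by
    rw [ht, ← pow_mul, ← pow_add, hn₀]
  have htx : t ∈ Subgroup.normalizer (Q : Set H) := hxn _
  have htpow : ∀ j : ℕ, ∀ u ∈ U, ρ (t ^ j) u ∈ U := by
    intro j
    induction j with
    | zero =>
      intro u hu
      simpa using hu
    | succ j ih =>
      intro u hu
      rw [pow_succ', map_mul, Module.End.mul_apply]
      exact htU _ (ih u hu)
  -- the subgroup of elements central on `U`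
  let Qs : Subgroup H :=
    { carrier := {g | g ∈ Q ∧ ∀ h ∈ Q, ∀ u ∈ U, ρ g (ρ h u) = ρ h (ρ g u)}
      mul_mem' := by
        rintro a b ⟨ha, ha'⟩ ⟨hb, hb'⟩
        refine ⟨Q.mul_mem ha hb, fun h hh u hu => ?_⟩
        rw [map_mul, Module.End.mul_apply, Module.End.mul_apply, hb' h hh u hu,
          ha' h hh _ (hU.inv b hb u hu)]
      one_mem' := by
        refine ⟨Q.one_mem, fun h _ u _ => ?_⟩
        simp
      inv_mem' := by
        rintro a ⟨ha, ha'⟩
        refine ⟨Q.inv_mem ha, fun h hh u hu => ?_⟩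
        have h1 := ha' h hh _ (hU.inv _ (Q.inv_mem ha) u hu)
        rw [rho_apply_inv] at h1
        rw [← h1, rho_inv_apply] }
  have hQsmem : ∀ g, g ∈ Qs ↔ g ∈ Q ∧ ∀ h ∈ Q, ∀ u ∈ U, ρ g (ρ h u) = ρ h (ρ g u) := fun g => Iff.rfl
  have hconjQs : ∀ s, s ∈ Subgroup.normalizer (Q : Set H) → (∀ u ∈ U, ρ s u ∈ U) →
      (∀ u ∈ U, ρ s⁻¹ u ∈ U) → ∀ g ∈ Qs, s * g * s⁻¹ ∈ Qs := by
    intro s hs hsU hsU' g hg
    obtain ⟨hg1, hg2⟩ := (hQsmem g).mp hg
    refine (hQsmem _).mpr ⟨conj_mem_of_mem_normalizer hs hg1, fun h hh u hu => ?_⟩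
    have hh' : s⁻¹ * h * s ∈ Q := inv_conj_mem_of_mem_normalizer hs hh
    have e1 : ρ (s * g * s⁻¹) (ρ h u) = ρ s (ρ g (ρ (s⁻¹ * h * s) (ρ s⁻¹ u))) := by
      simp only [map_mul, Module.End.mul_apply, rho_apply_inv]
    have e2 : ρ h (ρ (s * g * s⁻¹) u) = ρ s (ρ (s⁻¹ * h * s) (ρ g (ρ s⁻¹ u))) := by
      simp only [map_mul, Module.End.mul_apply, rho_apply_inv]
    rw [e1, e2, hg2 _ hh' _ (hsU' u hu)]
  have hqpos : q.Prime := Fact.out
  have htfin : IsOfFinOrder t := isOfFinOrder_of_finite t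
  have hcU : ∀ c ∈ Subgroup.zpowers t, ∀ u ∈ U, ρ c u ∈ U := by
    intro c hc u hu
    obtain ⟨j, rfl⟩ := htfin.mem_powers_iff_mem_zpowers.mpr hc
    exact htpow j u hu
  have hcn : ∀ c ∈ Subgroup.zpowers t, c ∈ Subgroup.normalizer (Q : Set H) := by
    intro c hc
    exact (Subgroup.zpowers_le.mpr htx) hc
  have hQsnorm : Q ≤ Subgroup.normalizer (Qs : Set H) := by
    intro b hb
    rw [Subgroup.mem_normalizer_iff]
    intro g
    constructor
    · intro hg
      exact hconjQs b (Subgroup.le_normalizer hb) (hU.inv b hb) (hU.inv _ (Q.inv_mem hb)) g hg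
    · intro hg
      have := hconjQs b⁻¹ (Subgroup.le_normalizer (Q.inv_mem hb)) (hU.inv _ (Q.inv_mem hb))
        (by simpa using hU.inv b hb) _ hg
      simpa [mul_assoc] using this
  set y := x ^ p ^ n with hy
  have hyt' : y ∈ Subgroup.zpowers t := by
    rw [hyt]
    exact Subgroup.pow_mem _ (Subgroup.mem_zpowers t) _
  have hyp : y ^ p = 1 := by
    rw [hy, ← pow_mul, ← pow_succ, ← hL, hxL]
  have hAQ : Subgroup.zpowers y ≤ Subgroup.normalizer (Q : Set H) :=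
    Subgroup.zpowers_le.mpr (hcn y hyt')
  have hAQs : Subgroup.zpowers y ≤ Subgroup.normalizer (Qs : Set H) := by
    rw [Subgroup.zpowers_le, Subgroup.mem_normalizer_iff]
    intro g
    have hy' := Subgroup.inv_mem _ hyt'
    constructor
    · intro hg
      exact hconjQs y (hcn y hyt') (hcU y hyt') (hcU _ hy') g hg
    · intro hg
      have := hconjQs y⁻¹ (hcn _ hy') (hcU _ hy') (by simpa using hcU y hyt') _ hg
      simpa [mul_assoc] using this
  have hcop : (Nat.card (Subgroup.zpowers y)).Coprime (Nat.card Q) := by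
    obtain ⟨m, hm⟩ := IsPGroup.iff_card.mp hQ
    rw [hm, Nat.card_zpowers]
    apply Nat.Coprime.pow_right
    exact Nat.Coprime.coprime_dvd_left (orderOf_dvd_of_pow_eq_one hyp)
      ((Nat.coprime_primes hpp hqpos).mpr hpq)
  have hsolv : Group.IsSolvable (Subgroup.zpowers y) := by
    infer_instance
  have hQsQ : Qs ≤ Q := fun g hg => hg.1
  have hF : ∀ c ∈ Subgroup.zpowers t, c ≠ 1 → ∀ g ∈ Q,
      (∀ h ∈ Q, ∀ u ∈ U, ρ (g⁻¹ * (c * g * c⁻¹)) (ρ h u) = ρ h (ρ (g⁻¹ * (c * g * c⁻¹)) u)) →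
      ∀ h ∈ Q, ∀ u ∈ U, ρ g (ρ h u) = ρ h (ρ g u) := by
    intro c hc hc1 g hg hcomm
    obtain ⟨l, hl⟩ := exists_pow_eq (n := n₀) hordt hc hc1 htfin
    rw [← hyt] at hl
    have hz : g⁻¹ * (c * g * c⁻¹) ∈ Qs := (hQsmem _).mpr
      ⟨Q.mul_mem (Q.inv_mem hg) (conj_mem_of_mem_normalizer (hcn c hc) hg), hcomm⟩
    have hfix0 : ∀ j : ℕ, g⁻¹ * (c ^ j * g * (c ^ j)⁻¹) ∈ Qs := by
      intro j
      induction j with
      | zero => simp [Qs.one_mem]
      | succ j ih =>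
        have h1 := hconjQs c (hcn c hc) (hcU c hc) (hcU _ (Subgroup.inv_mem _ hc)) _ ih
        have h2 := Qs.mul_mem hz h1
        convert h2 using 1
        rw [pow_succ']
        group
    have hfix : ∀ a ∈ Subgroup.zpowers y, a * g * a⁻¹ * g⁻¹ ∈ Qs := by
      intro a ha
      have hyfin : IsOfFinOrder y := isOfFinOrder_of_finite y
      obtain ⟨w, rfl⟩ := hyfin.mem_powers_iff_mem_zpowers.mpr ha
      have h1 := hfix0 (l * w)
      have h2 : (fun j => y ^ j) w = c ^ (l * w) := by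
        simp only
        rw [pow_mul, hl]
      rw [h2]
      have h3 := hconjQs g (Subgroup.le_normalizer hg) (hU.inv g hg) (hU.inv _ (Q.inv_mem hg)) _ h1
      convert h3 using 1
      group
    obtain ⟨c', hc', hgc'⟩ := Cfsg.Agent.Lib.Coprime.Action.exists_fixed_of_fixed_mod
      Qs hAQ hcop (Or.inl hsolv) hQsQ hQsnorm hAQs hg hfix
    have hc'Q : c' ∈ Q := hc'.1
    have hc'y : c' * y = y * c' := by
      have h9 : c' ∈ Subgroup.centralizer (Subgroup.zpowers y : Set H) := hc'.2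
      rw [Subgroup.mem_centralizer_iff] at h9
      exact (h9 y (Subgroup.mem_zpowers y)).symm
    have hc'Z := hCZ c' hc'Q hc'y
    have hc'Qs : c' ∈ Qs := by
      refine (hQsmem _).mpr ⟨hc'Q, fun h hh u _ => ?_⟩
      rw [← Module.End.mul_apply, ← Module.End.mul_apply, ← map_mul, ← map_mul, hc'Z h hh]
    have hgQs : g ∈ Qs := by
      have := Qs.mul_mem hc'Qs (Qs.inv_mem hgc')
      simpa using this
    exact ((hQsmem g).mp hgQs).2
  -- `y` is nontrivial on `U`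
  have hynt : ¬ ∀ u ∈ U, ρ y u = u := by
    intro hy1
    have h1 := hgen U hU.inv hy1
    obtain ⟨g, hg, u, hu, hgu⟩ := hnt
    obtain ⟨f, h0, h2, h3⟩ := hU₁U
    have hinj := hU₁.inj_of_hom h2 h3
    apply hgu
    have h4 : f (ρ g u - u) = 0 := by
      rw [map_sub, h2 g hg u hu, h1 g hg _ (h0 u hu), sub_self]
    have h5 := hinj _ (U₁.sub_mem (hU₁.inv g hg u hu) hu) h4
    exact sub_eq_zero.mp h5
  -- the dimension is not one
  have hD1 : finrank K U ≠ 1 := by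
    intro hD
    apply hynt
    have hzero : (ρ t - 1) ^ p ^ (n₀ + 1) = 0 := by
      rw [sub_one_pow (K := K) (p := p), ← map_pow, ← hordt, pow_orderOf_eq_one, map_one, sub_self]
    have hy2 := fixed_of_finrank_one (p := p) htU hD _ hzero
    intro u hu
    rw [hyt, map_pow]
    have hy3 : ∀ j : ℕ, (ρ t ^ j) u = u := by
      intro j
      induction j with
      | zero => simp
      | succ j ih =>
        rw [pow_succ, Module.End.mul_apply, hy2 u hu, ih]
    exact hy3 _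
  have hPge : 2 ≤ p ^ (n₀ + 1) := by
    calc 2 ≤ p := hpp.two_le
      _ = p ^ 1 := (pow_one p).symm
      _ ≤ p ^ (n₀ + 1) := Nat.pow_le_pow_right hpp.pos (by omega)
  rcases critical_sub hq ρ Q hQ hU htx htU (n₀ + 1) hordt hF with ⟨u, hu, hne⟩ | h | ⟨h1, u, hu, hne⟩
  · left
    have h2 := block_bound ρ x a (p ^ (n₀ + 1)) r (by omega) hind htU hu hne hr
    rw [← pow_add] at h2
    rwa [hL, hn₀, show a + n₀ + 1 = a + (n₀ + 1) by ring]
  · exact absurd h hD1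
  · right
    haveI hNT : Nontrivial U := Submodule.nontrivial_iff_ne_bot.mpr hU.ne_bot
    obtain ⟨m, hm⟩ := finrank_eq_pow hq (Nat.card Q) Q le_rfl hQ U
      (resQ ρ Q U hU.inv) (resQ_irr hU)
    have hm' : finrank K U = q ^ m := hm
    refine ⟨n₀ + 1, m, a, U, by omega, by omega, ?_, ?_, ?_, ?_, by omega, hU, htU, hU₁U, hm', u, hu, hne⟩
    · by_contra hm0
      have : m = 0 := by omega
      rw [this, pow_zero] at hm
      exact hD1 hm
    · rw [← hm]
      omega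
    · intro hcomm
      apply hD1
      apply finrank_eq_one_of_comm (resQ ρ Q U hU.inv) (resQ_irr hU)
      intro g h
      rw [← map_mul, ← map_mul, hcomm.is_comm.comm g h]
    · have h2 := block_bound ρ x a (p ^ (n₀ + 1) - 1) r (by omega) hind htU hu
        (by rwa [Nat.sub_sub]) hr
      have h3 : n + 1 - (n₀ + 1) = a := by omega
      rwa [h3]

end Cfsg.Agent.Lib.HallHigman.CoreFull
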