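/-
A section isomorphic to the wreath product `C_p ≀ C_p`, found from an element with a Jordan block of
full size `p` on a module.
-/
import Cfsg.Agent.Lib.HallHigman.Exponent
import Cfsg.Agent.Lib.PReduced.Sections

set_option autoImplicit false

namespace Cfsg.Agent.Lib.HallHigman.Wreath

open Module Cfsg.Agent.Lib.HallHigman.Core
  Cfsg.Agent.Lib.Core.Basic Cfsg.Agent.Lib.Core.PSolvable Cfsg.Agent.Lib.Core.PLength

universe u

section shift

variable (F : Type*) [Field F] (p : ℕ)

/-- The shift on `Fin p → F`. -/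
def shift : End F (Fin p → F) where
  toFun g i := if h : i.1 + 1 < p then g ⟨i.1 + 1, h⟩ else 0
  map_add' a b := by
    funext i
    by_cases h : i.1 + 1 < p <;> simp [h]
  map_smul' c a := by
    funext i
    by_cases h : i.1 + 1 < p <;> simp [h]

variable {F p}

theorem shift_apply (g : Fin p → F) (i : Fin p) :
    shift F p g i = if h : i.1 + 1 < p then g ⟨i.1 + 1, h⟩ else 0 := rfl

theorem shift_pow_apply (k : ℕ) (g : Fin p → F) (i : Fin p) :
    ((shift F p) ^ k) g i = if h : i.1 + k < p then g ⟨i.1 + k, h⟩ else 0 := by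
  induction k generalizing g with
  | zero => simp
  | succ k ih =>
    rw [pow_succ, Module.End.mul_apply, ih]
    by_cases h : i.1 + k < p
    · rw [dif_pos h, shift_apply]
      by_cases h2 : i.1 + k + 1 < p
      · rw [dif_pos h2, dif_pos (by omega)]
        rfl
      · rw [dif_neg h2, dif_neg (by omega)]
    · rw [dif_neg h, dif_neg (by omega)]

/-- An operator with a full Jordan block maps equivariantly onto the shift. -/
theorem exists_shift_map {V : Type*} [AddCommGroup V] [Module F V] (τ : End F V) (hp : 0 < p)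
    (h0 : τ ^ p = 0) (h1 : τ ^ (p - 1) ≠ 0) :
    ∃ Ψ : V →ₗ[F] (Fin p → F), Function.Surjective Ψ ∧ ∀ w, Ψ (τ w) = shift F p (Ψ w) := by
  obtain ⟨v, hv⟩ : ∃ v, (τ ^ (p - 1)) v ≠ 0 := by
    by_contra hall
    push Not at hall
    apply h1
    ext v
    simpa using hall v
  obtain ⟨φ, hφ⟩ : ∃ φ : Module.Dual F V, φ ((τ ^ (p - 1)) v) ≠ 0 := by
    by_contra hall
    push Not at hall
    exact hv ((Module.forall_dual_apply_eq_zero_iff F _).mp hall)
  let Ψ : V →ₗ[F] (Fin p → F) := LinearMap.pi (fun i => φ ∘ₗ (τ ^ i.1))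
  have hΨ : ∀ w i, Ψ w i = φ ((τ ^ i.1) w) := fun w i => rfl
  have hzero : ∀ k, p ≤ k → ∀ w, (τ ^ k) w = 0 := by
    intro k hk w
    obtain ⟨l, rfl⟩ := Nat.exists_eq_add_of_le hk
    rw [pow_add, h0, zero_mul, LinearMap.zero_apply]
  refine ⟨Ψ, ?_, ?_⟩
  · have hmain : ∀ j, j ≤ p → ∀ g : Fin p → F, (∀ i : Fin p, j ≤ i.1 → g i = 0) →
        g ∈ LinearMap.range Ψ := by
      intro j
      induction j with
      | zero =>
        intro _ g hg
        have : g = 0 := by
          funext i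
          exact hg i (Nat.zero_le _)
        rw [this]
        exact Submodule.zero_mem _
      | succ j ih =>
        intro hj g hg
        let j' : Fin p := ⟨j, hj⟩
        let c := φ ((τ ^ (p - 1)) v)
        let h := Ψ ((τ ^ (p - 1 - j)) v)
        have hh : ∀ i : Fin p, h i = φ ((τ ^ (i.1 + (p - 1 - j))) v) := by
          intro i
          change φ ((τ ^ i.1) ((τ ^ (p - 1 - j)) v)) = _
          rw [← Module.End.mul_apply, ← pow_add]
        have hhj : h j' = c := by
          rw [hh]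
          change φ ((τ ^ (j + (p - 1 - j))) v) = _
          have : j + (p - 1 - j) = p - 1 := by omega
          rw [this]
        have hhi : ∀ i : Fin p, j + 1 ≤ i.1 → h i = 0 := by
          intro i hi
          rw [hh, hzero _ (by omega), map_zero]
        let g' : Fin p → F := g - (g j' / c) • h
        have hg' : g' ∈ LinearMap.range Ψ := by
          apply ih (by omega)
          intro i hi
          rcases Nat.lt_or_ge j i.1 with hlt | hge
          · change g i - (g j' / c) * h i = 0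
            rw [hg i hlt, hhi i hlt]
            ring
          · have hij : i = j' := Fin.ext (by simp [j']; omega)
            rw [hij]
            change g j' - (g j' / c) * h j' = 0
            have hc : c ≠ 0 := hφ
            rw [hhj, div_mul_cancel₀ _ hc, sub_self]
        have hgeq : g = g' + (g j' / c) • h := by
          simp [g']
        rw [hgeq]
        exact Submodule.add_mem _ hg' (Submodule.smul_mem _ _ ⟨_, rfl⟩)
    intro g
    exact hmain p le_rfl g (fun i hi => absurd i.2 (by omega))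
  · intro w
    funext i
    rw [shift_apply, hΨ]
    have e : (τ ^ i.1) (τ w) = (τ ^ (i.1 + 1)) w := by
      rw [pow_succ, Module.End.mul_apply]
    rw [e]
    by_cases h : i.1 + 1 < p
    · rw [dif_pos h]
      rfl
    · rw [dif_neg h, hzero _ (by omega), map_zero]

end shift

section wreath

/-- The group is like the wreath product `C_p ≀ C_p`. -/
def IsWreathLike (p : ℕ) (W : Type*) [Group W] : Prop :=
  ∃ (B : Subgroup W) (t : W), B.Normal ∧ IsMulCommutative B ∧ (∀ b ∈ B, b ^ p = 1) ∧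
    Nat.card B = p ^ p ∧ orderOf t = p ∧ t ∉ B ∧ Nat.card W = p ^ (p + 1) ∧
    Nat.card ↥(B ⊓ Subgroup.centralizer ({t} : Set W)) = p

theorem IsWreathLike.of_equiv {p : ℕ} {W W' : Type*} [Group W] [Group W'] (e : W ≃* W')
    (h : IsWreathLike p W) : IsWreathLike p W' := by
  obtain ⟨B, t, hn, hc, he, hcard, ho, ht, hW, hC⟩ := h
  have hmem : ∀ a : W, e a ∈ B.map e.toMonoidHom ↔ a ∈ B := by
    intro a
    constructor
    · rintro ⟨a', ha', h⟩
      have : a' = a := e.injective h
      rwa [← this]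
    · intro ha
      exact ⟨a, ha, rfl⟩
  refine ⟨B.map e.toMonoidHom, e t, hn.map _ e.surjective, ?_, ?_, ?_, ?_, ?_, ?_, ?_⟩
  · refine ⟨⟨?_⟩⟩
    rintro ⟨_, a, ha, rfl⟩ ⟨_, b, hb, rfl⟩
    apply Subtype.ext
    have h1 := hc.is_comm.comm ⟨a, ha⟩ ⟨b, hb⟩
    have h2 : a * b = b * a := congrArg Subtype.val h1
    change e a * e b = e b * e a
    rw [← map_mul, ← map_mul, h2]
  · rintro _ ⟨a, ha, rfl⟩
    change (e a) ^ p = 1
    rw [← map_pow, he a ha, map_one]
  · rw [← hcard]
    exact (Nat.card_congr (MulEquiv.subgroupMap e B).toEquiv).symm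
  · rw [MulEquiv.orderOf_eq, ho]
  · rw [hmem]
    exact ht
  · rw [← hW]
    exact (Nat.card_congr e.toEquiv).symm
  · rw [← hC]
    have hEq : B.map e.toMonoidHom ⊓ Subgroup.centralizer ({e t} : Set W') =
        (B ⊓ Subgroup.centralizer ({t} : Set W)).map e.toMonoidHom := by
      ext y
      obtain ⟨a, rfl⟩ := e.surjective y
      constructor
      · rintro ⟨h1, h2⟩
        refine ⟨a, ⟨(hmem a).mp h1, ?_⟩, rfl⟩
        have h2' : e a ∈ Subgroup.centralizer ({e t} : Set W') := h2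
        change a ∈ Subgroup.centralizer ({t} : Set W)
        rw [Subgroup.mem_centralizer_singleton_iff] at h2' ⊢
        apply e.injective
        rw [map_mul, map_mul]
        exact h2'
      · rintro ⟨a', ⟨h1, h2⟩, h3⟩
        have h4 : a' = a := e.injective h3
        rw [h4] at h1 h2
        refine ⟨(hmem a).mpr h1, ?_⟩
        have h2' : a ∈ Subgroup.centralizer ({t} : Set W) := h2
        change e a ∈ Subgroup.centralizer ({e t} : Set W')
        rw [Subgroup.mem_centralizer_singleton_iff] at h2' ⊢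
        rw [← map_mul, ← map_mul, h2']
    rw [hEq]
    exact (Nat.card_congr (MulEquiv.subgroupMap e _).toEquiv).symm

variable {p : ℕ} [hp : Fact p.Prime]

/-- The norm formula. -/
theorem norm_formula {F : Type*} [Field F] {W : Type*} [Group W] (B : Subgroup W) [hBn : B.Normal]
    {A : Type*} [AddCommGroup A] [Module F A] (f : B → A) (hadd : ∀ a b, f (a * b) = f a + f b)
    (τ : End F A) (x : W) (hact : ∀ b b' : B, b'.1 = x * b.1 * x⁻¹ → f b' = τ (f b)) (b : B) (m : ℕ)
    (w : B) (hw : w.1 = (b.1 * x) ^ m * (x ^ m)⁻¹) :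
    f w = ∑ i ∈ Finset.range m, (τ ^ i) (f b) := by
  have hf1 : f 1 = 0 := by
    have := hadd 1 1
    rw [mul_one] at this
    simpa using this
  induction m generalizing w with
  | zero =>
    have : w = 1 := Subtype.ext (by simpa using hw)
    rw [this, hf1]
    simp
  | succ m ih =>
    have hmem : (b.1 * x) ^ m * (x ^ m)⁻¹ ∈ B := by
      have h1 : ((b.1 * x : W) : W ⧸ B) = (x : W ⧸ B) := by
        rw [QuotientGroup.eq]
        have e : (b.1 * x)⁻¹ * x = x⁻¹ * b.1⁻¹ * x := by group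
        rw [e]
        have := hBn.conj_mem b.1⁻¹ (B.inv_mem b.2) x⁻¹
        simpa using this
      have h2 : (((b.1 * x) ^ m : W) : W ⧸ B) = ((x ^ m : W) : W ⧸ B) := by
        rw [QuotientGroup.mk_pow, QuotientGroup.mk_pow, h1]
      rw [QuotientGroup.eq] at h2
      have h3 := hBn.conj_mem _ h2 ((b.1 * x) ^ m)
      have e : (b.1 * x) ^ m * (((b.1 * x) ^ m)⁻¹ * x ^ m) * ((b.1 * x) ^ m)⁻¹
          = x ^ m * ((b.1 * x) ^ m)⁻¹ := by group
      rw [e] at h3
      have h4 := B.inv_mem h3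
      simpa using h4
    have hih := ih ⟨_, hmem⟩ rfl
    have hmem2 : x * ((b.1 * x) ^ m * (x ^ m)⁻¹) * x⁻¹ ∈ B := hBn.conj_mem _ hmem x
    have h5 := hact ⟨_, hmem⟩ ⟨_, hmem2⟩ rfl
    have e : w = b * ⟨_, hmem2⟩ := by
      apply Subtype.ext
      rw [hw]
      change _ = b.1 * (x * ((b.1 * x) ^ m * (x ^ m)⁻¹) * x⁻¹)
      rw [pow_succ', pow_succ']
      group
    rw [e, hadd, h5, hih, Finset.sum_range_succ', pow_zero, Module.End.one_apply, map_sum, add_comm]
    congr 1
    refine Finset.sum_congr rfl (fun i _ => ?_)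
    rw [pow_succ', Module.End.mul_apply]

/-- A group with a normal subgroup carrying the shift action, with a generator of the quotient. -/
theorem wreathLike_of_shift {W : Type*} [Group W] [Finite W] (B : Subgroup W) [hBn : B.Normal]
    (f : B → (Fin p → ZMod p)) (hadd : ∀ a b, f (a * b) = f a + f b)
    (hbij : Function.Bijective f) (x : W) (hxB : x ∉ B) (hxp : x ^ p ∈ B)
    (hgen : ∀ d : W, ∃ b ∈ B, ∃ i : ℕ, d = b * x ^ i)
    (hact : ∀ b b' : B, b'.1 = x * b.1 * x⁻¹ → f b' = f b + shift (ZMod p) p (f b)) :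
    IsWreathLike p W := by
  classical
  have hpp : p.Prime := hp.out
  have hpos : 0 < p := hpp.pos
  have hf1 : f 1 = 0 := by
    have := hadd 1 1
    rw [mul_one] at this
    simpa using this
  have hfinv : ∀ a, f a⁻¹ = - f a := by
    intro a
    have := hadd a⁻¹ a
    rw [inv_mul_cancel, hf1] at this
    exact (eq_neg_of_add_eq_zero_left this.symm)
  have hcomm : ∀ a b : B, a * b = b * a := by
    intro a b
    apply hbij.1
    rw [hadd, hadd, add_comm]
  have hfpow : ∀ (a : B) (n : ℕ), f (a ^ n) = n • f a := by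
    intro a n
    induction n with
    | zero => simpa using hf1
    | succ n ih => rw [pow_succ, hadd, ih, succ_nsmul]
  have hexpo : ∀ b ∈ B, b ^ p = 1 := by
    intro b hb
    have h1 : f (⟨b, hb⟩ ^ p) = f 1 := by
      rw [hfpow, hf1]
      funext i
      simp
    have h2 := hbij.1 h1
    exact congrArg Subtype.val h2
  have hcardB : Nat.card B = p ^ p := by
    rw [Nat.card_congr (Equiv.ofBijective f hbij), Nat.card_fun, Nat.card_zmod, Nat.card_fin]
  let o : Fin p := ⟨0, hpos⟩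
  let l : Fin p := ⟨p - 1, by omega⟩
  have hS0 : ∀ g : Fin p → ZMod p, shift (ZMod p) p g = 0 → ∀ i : Fin p, i ≠ o → g i = 0 := by
    intro g hg i hi
    have hi0 : i.1 ≠ 0 := fun h => hi (Fin.ext h)
    obtain ⟨j, hj⟩ := Nat.exists_eq_succ_of_ne_zero hi0
    have hjp : j + 1 < p := by
      have := i.2
      omega
    have h1 := congrFun hg ⟨j, by omega⟩
    rw [shift_apply, dif_pos hjp] at h1
    have h2 : i = ⟨j + 1, hjp⟩ := Fin.ext hj
    rw [h2]
    exact h1
  have hSfix : ∀ c : B, x * c.1 * x⁻¹ = c.1 ↔ shift (ZMod p) p (f c) = 0 := by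
    intro c
    constructor
    · intro h
      have h1 := hact c c h.symm
      have h2 : f c + shift (ZMod p) p (f c) = f c + 0 := by rw [← h1, add_zero]
      exact add_left_cancel h2
    · intro h
      have hm : x * c.1 * x⁻¹ ∈ B := hBn.conj_mem _ c.2 x
      have h1 := hact c ⟨_, hm⟩ rfl
      rw [h, add_zero] at h1
      exact congrArg Subtype.val (hbij.1 h1)
  -- the power of `x`
  let a : B := ⟨x ^ p, hxp⟩
  have haS : shift (ZMod p) p (f a) = 0 := by
    rw [← hSfix]
    change x * x ^ p * x⁻¹ = x ^ p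
    rw [← pow_succ']
    group
  have hav := hS0 _ haS
  -- the complement generator
  obtain ⟨b, hb⟩ := hbij.2 (fun i : Fin p => if i.1 = p - 1 then - f a o else 0)
  have hN : ∀ w : B, w.1 = (b.1 * x) ^ p * (x ^ p)⁻¹ → f w = - f a := by
    intro w hw
    let τ : End (ZMod p) (Fin p → ZMod p) := 1 + shift (ZMod p) p
    have h1 := norm_formula (F := ZMod p) B f hadd τ x (by
      intro c c' h
      rw [hact c c' h]
      rfl) b p w hw
    have h2 : ∑ i ∈ Finset.range p, (τ ^ i) (f b) = ((shift (ZMod p) p) ^ (p - 1)) (f b) := by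
      have h3 := sum_pow_eq (K := ZMod p) (p := p) τ 1
      rw [pow_one] at h3
      have h4 : τ - 1 = shift (ZMod p) p := by
        simp [τ]
      rw [h4] at h3
      rw [← h3, LinearMap.sum_apply]
    rw [h1, h2]
    funext i
    rw [shift_pow_apply, hb, Pi.neg_apply]
    by_cases hi : i = o
    · rw [hi]
      have h5 : (o : Fin p).1 + (p - 1) < p := by
        change 0 + (p - 1) < p
        omega
      rw [dif_pos h5]
      have h6 : (o : Fin p).1 + (p - 1) = p - 1 := by
        change 0 + (p - 1) = p - 1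
        omega
      simp only [h6, if_true]
    · have hi0 : i.1 ≠ 0 := fun h => hi (Fin.ext h)
      have h5 : ¬ i.1 + (p - 1) < p := by omega
      rw [dif_neg h5, hav i hi, neg_zero]
  have ht1 : (b.1 * x) ^ p = 1 := by
    have h1 : (b.1 * x) ^ p * (x ^ p)⁻¹ ∈ B := by
      have h2 : ((b.1 * x : W) : W ⧸ B) = (x : W ⧸ B) := by
        rw [QuotientGroup.eq]
        have e : (b.1 * x)⁻¹ * x = x⁻¹ * b.1⁻¹ * x := by group
        rw [e]
        have := hBn.conj_mem b.1⁻¹ (B.inv_mem b.2) x⁻¹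
        simpa using this
      have h3 : (((b.1 * x) ^ p : W) : W ⧸ B) = ((x ^ p : W) : W ⧸ B) := by
        rw [QuotientGroup.mk_pow, QuotientGroup.mk_pow, h2]
      rw [QuotientGroup.eq] at h3
      have h4 := hBn.conj_mem _ h3 ((b.1 * x) ^ p)
      have e : (b.1 * x) ^ p * (((b.1 * x) ^ p)⁻¹ * x ^ p) * ((b.1 * x) ^ p)⁻¹
          = x ^ p * ((b.1 * x) ^ p)⁻¹ := by group
      rw [e] at h4
      have h5 := B.inv_mem h4
      simpa using h5
    have h2 := hN ⟨_, h1⟩ rfl
    rw [← hfinv] at h2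
    have h3 := congrArg Subtype.val (hbij.1 h2)
    have h4 : (b.1 * x) ^ p * (x ^ p)⁻¹ = (x ^ p)⁻¹ := h3
    simpa using h4
  have htB : b.1 * x ∉ B := by
    intro h
    apply hxB
    have e : x = b.1⁻¹ * (b.1 * x) := by group
    rw [e]
    exact B.mul_mem (B.inv_mem b.2) h
  have hord : orderOf (b.1 * x) = p := by
    apply orderOf_eq_prime ht1
    intro h
    apply htB
    rw [h]
    exact B.one_mem
  -- the order of `W`
  have hcardW : Nat.card W = p ^ (p + 1) := by
    have hxbar : orderOf ((x : W) : W ⧸ B) = p := by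
      apply orderOf_eq_prime
      · rw [← QuotientGroup.mk_pow]
        exact (QuotientGroup.eq_one_iff _).mpr hxp
      · intro h
        exact hxB ((QuotientGroup.eq_one_iff _).mp h)
    have hgenb : ∀ y : W ⧸ B, y ∈ Subgroup.zpowers ((x : W) : W ⧸ B) := by
      intro y
      obtain ⟨d, rfl⟩ := QuotientGroup.mk_surjective y
      obtain ⟨b', hb', i, rfl⟩ := hgen d
      have e : ((b' * x ^ i : W) : W ⧸ B) = ((x : W) : W ⧸ B) ^ i := by
        rw [QuotientGroup.mk_mul, (QuotientGroup.eq_one_iff _).mpr hb', one_mul, QuotientGroup.mk_pow]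
      rw [e]
      exact Subgroup.pow_mem _ (Subgroup.mem_zpowers _) _
    have h1 := orderOf_eq_card_of_forall_mem_zpowers hgenb
    have h2 := Subgroup.card_mul_index B
    rw [Subgroup.index_eq_card, ← h1, hxbar, hcardB] at h2
    rw [← h2, pow_succ]
  -- the centraliser
  have hcent : ∀ c : B, c.1 ∈ Subgroup.centralizer ({b.1 * x} : Set W) ↔
      shift (ZMod p) p (f c) = 0 := by
    intro c
    rw [Subgroup.mem_centralizer_singleton_iff, ← hSfix]
    have h1 : c.1 * b.1 = b.1 * c.1 := congrArg Subtype.val (hcomm c b)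
    constructor
    · intro h
      have h2 : b.1 * (c.1 * x) = b.1 * (x * c.1) := by
        calc b.1 * (c.1 * x) = c.1 * b.1 * x := by rw [h1, mul_assoc]
          _ = c.1 * (b.1 * x) := by rw [mul_assoc]
          _ = b.1 * x * c.1 := h
          _ = b.1 * (x * c.1) := by rw [mul_assoc]
      have h3 := mul_left_cancel h2
      rw [← h3]
      group
    · intro h
      have h2 : c.1 * x = x * c.1 := by
        calc c.1 * x = (x * c.1 * x⁻¹) * x := by rw [h]
          _ = x * c.1 := by group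
      calc c.1 * (b.1 * x) = (c.1 * b.1) * x := by rw [mul_assoc]
        _ = b.1 * (c.1 * x) := by rw [h1, mul_assoc]
        _ = b.1 * x * c.1 := by rw [h2, mul_assoc]
  have hcardC : Nat.card ↥(B ⊓ Subgroup.centralizer ({b.1 * x} : Set W)) = p := by
    let ψ : ↥(B ⊓ Subgroup.centralizer ({b.1 * x} : Set W)) → ZMod p := fun c => f ⟨c.1, c.2.1⟩ o
    have hψ : Function.Bijective ψ := by
      constructor
      · intro c₁ c₂ h
        apply Subtype.ext
        have h1 : shift (ZMod p) p (f ⟨c₁.1, c₁.2.1⟩) = 0 := (hcent _).mp c₁.2.2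
        have h2 : shift (ZMod p) p (f ⟨c₂.1, c₂.2.1⟩) = 0 := (hcent _).mp c₂.2.2
        have h3 : f ⟨c₁.1, c₁.2.1⟩ = f ⟨c₂.1, c₂.2.1⟩ := by
          funext i
          by_cases hi : i = o
          · rw [hi]
            exact h
          · rw [hS0 _ h1 i hi, hS0 _ h2 i hi]
        have h4 := hbij.1 h3
        exact congrArg (fun z : B => z.1) h4
      · intro y
        obtain ⟨c, hc⟩ := hbij.2 (fun i : Fin p => if i.1 = 0 then y else 0)
        have hSc : shift (ZMod p) p (f c) = 0 := by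
          rw [hc]
          funext i
          rw [shift_apply]
          by_cases h : i.1 + 1 < p
          · rw [dif_pos h]
            simp
          · rw [dif_neg h]
            rfl
        refine ⟨⟨c.1, c.2, (hcent c).mpr hSc⟩, ?_⟩
        change f c o = y
        rw [hc]
        simp [o]
    rw [Nat.card_congr (Equiv.ofBijective ψ hψ), Nat.card_zmod]
  refine ⟨B, b.1 * x, hBn, ?_, hexpo, hcardB, hord, htB, hcardW, hcardC⟩
  exact ⟨⟨hcomm⟩⟩

/-- The quotient by the kernel of the map to the shift module is like the wreath product. -/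
theorem wreathLike_quotient {D : Type*} [Group D] [Finite D] (T : Subgroup D) [hTn : T.Normal]
    (f : T → (Fin p → ZMod p)) (hadd : ∀ a b, f (a * b) = f a + f b)
    (hsurj : Function.Surjective f) (x : D) (hxT : x ∉ T) (hxp : x ^ p ∈ T)
    (hgen : ∀ d : D, ∃ t ∈ T, ∃ i : ℕ, d = t * x ^ i)
    (hact : ∀ t t' : T, t'.1 = x * t.1 * x⁻¹ → f t' = f t + shift (ZMod p) p (f t)) :
    ∃ (R : Subgroup D) (_ : R.Normal), IsWreathLike p (D ⧸ R) := by
  classical
  have hf1 : f 1 = 0 := by
    have := hadd 1 1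
    rw [mul_one] at this
    simpa using this
  have hfinv : ∀ a, f a⁻¹ = - f a := by
    intro a
    have := hadd a⁻¹ a
    rw [inv_mul_cancel, hf1] at this
    exact (eq_neg_of_add_eq_zero_left this.symm)
  let R : Subgroup D :=
    { carrier := {r | ∃ h : r ∈ T, f ⟨r, h⟩ = 0}
      mul_mem' := by
        rintro a b ⟨ha, ha'⟩ ⟨hb, hb'⟩
        refine ⟨T.mul_mem ha hb, ?_⟩
        have := hadd ⟨a, ha⟩ ⟨b, hb⟩
        rw [ha', hb', add_zero] at this
        exact this
      one_mem' := ⟨T.one_mem, hf1⟩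
      inv_mem' := by
        rintro a ⟨ha, ha'⟩
        refine ⟨T.inv_mem ha, ?_⟩
        have := hfinv ⟨a, ha⟩
        rw [ha', neg_zero] at this
        exact this }
  have hRT : R ≤ T := fun r hr => hr.1
  have hR : ∀ t : T, t.1 ∈ R ↔ f t = 0 := by
    intro t
    constructor
    · rintro ⟨_, h⟩
      exact h
    · intro h
      exact ⟨t.2, h⟩
  have hconjx : ∀ r ∈ R, x * r * x⁻¹ ∈ R := by
    rintro r ⟨hr, hr'⟩
    have hm : x * r * x⁻¹ ∈ T := hTn.conj_mem r hr x
    refine ⟨hm, ?_⟩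
    have := hact ⟨r, hr⟩ ⟨_, hm⟩ rfl
    rw [hr', map_zero, add_zero] at this
    exact this
  have hconjxi : ∀ (i : ℕ), ∀ r ∈ R, x ^ i * r * (x ^ i)⁻¹ ∈ R := by
    intro i
    induction i with
    | zero => simp
    | succ i ih =>
      intro r hr
      have h1 := hconjx _ (ih r hr)
      have e : x ^ (i + 1) * r * (x ^ (i + 1))⁻¹ = x * (x ^ i * r * (x ^ i)⁻¹) * x⁻¹ := by
        rw [pow_succ']
        group
      rw [e]
      exact h1
  have hconjt : ∀ t ∈ T, ∀ r ∈ R, t * r * t⁻¹ ∈ R := by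
    rintro t ht r ⟨hr, hr'⟩
    have hm : t * r * t⁻¹ ∈ T := T.mul_mem (T.mul_mem ht hr) (T.inv_mem ht)
    refine ⟨hm, ?_⟩
    have e : (⟨_, hm⟩ : T) = ⟨t, ht⟩ * ⟨r, hr⟩ * (⟨t, ht⟩ : T)⁻¹ := Subtype.ext rfl
    rw [e, hadd, hadd, hfinv, hr']
    abel
  haveI hRn : R.Normal := by
    constructor
    intro r hr g
    obtain ⟨t, ht, i, rfl⟩ := hgen g
    have h1 := hconjt t ht _ (hconjxi i r hr)
    have e : t * x ^ i * r * (t * x ^ i)⁻¹ = t * (x ^ i * r * (x ^ i)⁻¹) * t⁻¹ := by group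
    rw [e]
    exact h1
  let π := QuotientGroup.mk' R
  have hπ : Function.Surjective π := QuotientGroup.mk'_surjective R
  let B : Subgroup (D ⧸ R) := T.map π
  haveI hBn : B.Normal := hTn.map π hπ
  have hBmem : ∀ t ∈ T, π t ∈ B := fun t ht => ⟨t, ht, rfl⟩
  have hfib : ∀ (a a' : T), π a.1 = π a'.1 → f a = f a' := by
    intro a a' h
    have h1 : a.1⁻¹ * a'.1 ∈ R := (QuotientGroup.eq (s := R)).mp h
    have h2 : (a⁻¹ * a').1 ∈ R := h1
    have h3 := (hR _).mp h2
    rw [hadd, hfinv] at h3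
    have h4 : f a' = f a := by
      have : f a' - f a = 0 := by
        rw [← h3]
        abel
      exact sub_eq_zero.mp this
    exact h4.symm
  let rep : B → T := fun b => ⟨b.2.choose, b.2.choose_spec.1⟩
  have hrep : ∀ b : B, π (rep b).1 = b.1 := fun b => b.2.choose_spec.2
  let f' : B → (Fin p → ZMod p) := fun b => f (rep b)
  have hf' : ∀ (b : B) (a : T), π a.1 = b.1 → f' b = f a := by
    intro b a h
    apply hfib
    rw [hrep, h]
  refine ⟨R, hRn, wreathLike_of_shift B f' ?_ ?_ (π x) ?_ ?_ ?_ ?_⟩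
  · intro a b
    have h1 : f' a = f (rep a) := rfl
    have h2 : f' b = f (rep b) := rfl
    rw [h1, h2, ← hadd]
    apply hf'
    change π ((rep a).1 * (rep b).1) = a.1 * b.1
    rw [map_mul, hrep, hrep]
  · constructor
    · intro a b hab
      apply Subtype.ext
      have h1 : f (rep a) = f (rep b) := hab
      have h2 : f ((rep a)⁻¹ * rep b) = 0 := by
        rw [hadd, hfinv, h1]
        abel
      have h3 := (hR _).mpr h2
      have h4 : (rep a).1⁻¹ * (rep b).1 ∈ R := h3
      have h5 : π (rep a).1 = π (rep b).1 := (QuotientGroup.eq (s := R)).mpr h4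
      rw [hrep, hrep] at h5
      exact h5
    · intro g
      obtain ⟨t, rfl⟩ := hsurj g
      exact ⟨⟨π t.1, hBmem _ t.2⟩, hf' _ t rfl⟩
  · rintro ⟨t, ht, h⟩
    apply hxT
    have h1 : t⁻¹ * x ∈ R := (QuotientGroup.eq (s := R)).mp h
    have e : x = t * (t⁻¹ * x) := by group
    rw [e]
    exact T.mul_mem ht (hRT h1)
  · rw [← map_pow]
    exact hBmem _ hxp
  · intro d
    obtain ⟨d', rfl⟩ := hπ d
    obtain ⟨t, ht, i, rfl⟩ := hgen d'
    refine ⟨π t, hBmem t ht, i, ?_⟩
    rw [map_mul, map_pow]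
  · intro b b' h
    have hm : x * (rep b).1 * x⁻¹ ∈ T := hTn.conj_mem _ (rep b).2 x
    have h1 : π (⟨_, hm⟩ : T).1 = b'.1 := by
      rw [h, ← hrep b]
      simp only [map_mul, map_inv]
    rw [hf' b' ⟨_, hm⟩ h1, hact (rep b) ⟨_, hm⟩ rfl]

/-- An element with a full Jordan block gives a section like the wreath product. -/
theorem of_jordan {E : Type*} [Group E] [Finite E] (T : Subgroup E) [hTn : T.Normal] {V : Type*}
    [AddCommGroup V] [Module (ZMod p) V] (π : T → V) (hπadd : ∀ a b, π (a * b) = π a + π b)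
    (hπsurj : Function.Surjective π) (τ : End (ZMod p) V) (x : E)
    (hact : ∀ t t' : T, t'.1 = x * t.1 * x⁻¹ → π t' = π t + τ (π t)) (hτ0 : τ ^ p = 0)
    (hτ1 : τ ^ (p - 1) ≠ 0) (hxT : x ∉ T) (hxp : x ^ p ∈ T) :
    ∃ (R : Subgroup ↥(T ⊔ Subgroup.zpowers x)) (_ : R.Normal),
      IsWreathLike p (↥(T ⊔ Subgroup.zpowers x) ⧸ R) := by
  obtain ⟨Ψ, hΨs, hΨ⟩ := exists_shift_map τ hp.out.pos hτ0 hτ1
  set D := T ⊔ Subgroup.zpowers x with hD
  have hTD : T ≤ D := le_sup_left
  have hxD : x ∈ D := (le_sup_right : Subgroup.zpowers x ≤ D) (Subgroup.mem_zpowers x)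
  let T' : Subgroup D := T.subgroupOf D
  haveI : T'.Normal := inferInstance
  let f : T' → (Fin p → ZMod p) := fun t => Ψ (π ⟨t.1.1, t.2⟩)
  refine wreathLike_quotient T' f ?_ ?_ ⟨x, hxD⟩ hxT ?_ ?_ ?_
  · intro a b
    change Ψ (π (⟨a.1.1, a.2⟩ * ⟨b.1.1, b.2⟩)) = _
    rw [hπadd, map_add]
  · intro g
    obtain ⟨v, rfl⟩ := hΨs g
    obtain ⟨t, rfl⟩ := hπsurj v
    exact ⟨⟨⟨t.1, hTD t.2⟩, t.2⟩, rfl⟩
  · exact hxp
  · intro d
    have hd : d.1 ∈ (T ⊔ Subgroup.zpowers x : Subgroup E) := d.2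
    rw [← SetLike.mem_coe, Subgroup.normal_mul T (Subgroup.zpowers x)] at hd
    obtain ⟨t, ht, z, hz, hdz⟩ := Set.mem_mul.mp hd
    obtain ⟨i, rfl⟩ := (isOfFinOrder_of_finite x).mem_powers_iff_mem_zpowers.mpr hz
    refine ⟨⟨t, hTD ht⟩, ht, i, Subtype.ext ?_⟩
    rw [← hdz]
    rfl
  · intro t t' h
    have h1 := hact ⟨t.1.1, t.2⟩ ⟨t'.1.1, t'.2⟩ (congrArg Subtype.val h)
    change Ψ (π ⟨t'.1.1, t'.2⟩) = Ψ (π ⟨t.1.1, t.2⟩) + shift (ZMod p) p (Ψ (π ⟨t.1.1, t.2⟩))
    rw [h1, map_add, hΨ]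

/-- A copy of a finite group in `Type`. -/
theorem exists_copy (W : Type*) [Group W] [Finite W] :
    ∃ (W₀ : Type) (_ : Group W₀) (_ : Finite W₀), Nonempty (W₀ ≃* W) := by
  let e₀ : W ≃ {i : ℕ // i < Nat.card W} := (Finite.equivFin W).trans Fin.equivSubtype
  letI g : Group {i : ℕ // i < Nat.card W} := e₀.symm.group
  haveI : Finite {i : ℕ // i < Nat.card W} := Finite.of_equiv _ e₀
  exact ⟨{i : ℕ // i < Nat.card W}, g, inferInstance,
    ⟨⟨e₀.symm, fun a b => e₀.symm.apply_symm_apply _⟩⟩⟩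

/-- The reduction to the module. -/
theorem pLength_le_one_of_no_wreath {G : Type u} [Group G] [Finite G] (hp2 : p ≠ 2)
    (hnf : ¬ ∃ k : ℕ, p = 2 ^ k + 1) (hG : Cfsg.IsPSolvable p G) (P : Sylow p G)
    (hwr : ∀ (W : Type) [Group W] [Finite W], IsWreathLike p W →
      ¬ Cfsg.Involves W ↥(P : Subgroup G)) : Cfsg.PLengthLE p 1 G := by
  classical
  have hpp : p.Prime := hp.out
  let N := pPrimeCore p G
  let f := QuotientGroup.mk' N
  have hf : Function.Surjective f := QuotientGroup.mk'_surjective N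
  have hS₁ : Cfsg.IsPSolvable p (G ⧸ N) := isPSolvable_of_surjective f hf hG
  have hred : pPrimeCore p (G ⧸ N) = ⊥ := pPrimeCore_quotient_eq_bot
  let T := pCore p (G ⧸ N)
  let f₂ := QuotientGroup.mk' T
  have hf₂ : Function.Surjective f₂ := QuotientGroup.mk'_surjective T
  have hS₂ : Cfsg.IsPSolvable p ((G ⧸ N) ⧸ T) := isPSolvable_of_surjective f₂ hf₂ hS₁
  have hOp : pCore p ((G ⧸ N) ⧸ T) = ⊥ := pCore_quotient_eq_bot
  obtain ⟨V, i1, i2, i3, ρ, π, hinj, hπadd, hπsurj, hπact, -⟩ := Exponent.exists_faithful_module hS₁ hred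
  suffices hIH : Cfsg.PLengthLE p 0 ((G ⧸ N) ⧸ T) by
    have h1 : Cfsg.PLengthLE p (1 + 0) (G ⧸ N) := by
      refine PLengthLE.of_ker f₂ hf₂ ?_ hIH
      rw [QuotientGroup.ker_mk']
      exact pLengthLE_one_of_isPGroup pCore_isPGroup
    have h2 : Cfsg.PLengthLE p (0 + (1 + 0)) G := by
      refine PLengthLE.of_ker f hf ?_ h1
      rw [QuotientGroup.ker_mk']
      exact pLengthLE_zero_iff.mpr pPrimeCore_coprime
    simpa using h2
  rw [pLengthLE_zero_iff, Nat.coprime_comm, Nat.Prime.coprime_iff_not_dvd hpp]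
  intro hd
  let P₁ := P.mapSurjective hf
  let P₂ := P₁.mapSurjective hf₂
  have hd₂ : p ∣ Nat.card P₂ := P₂.dvd_card_of_dvd_card hd
  obtain ⟨y₂, hy₂⟩ := exists_prime_orderOf_dvd_card' (G := P₂) p hd₂
  obtain ⟨x, hxP₁, hx⟩ : ∃ x ∈ (P₁ : Subgroup (G ⧸ N)), f₂ x = y₂.1 := by
    have h0 : (P₂ : Subgroup _) = (P₁ : Subgroup (G ⧸ N)).map f₂ := Sylow.coe_mapSurjective _ _
    have h1 : y₂.1 ∈ (P₁ : Subgroup (G ⧸ N)).map f₂ := by
      rw [← h0]
      exact y₂.2
    exact h1
  have hord : orderOf (f₂ x) = p := by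
    rw [hx, Subgroup.orderOf_coe, hy₂]
  set xb := f₂ x with hxb
  have hxbp : xb ^ p = 1 := by
    have h1 := pow_orderOf_eq_one xb
    rwa [hord] at h1
  let τ : End (ZMod p) V := ρ xb - 1
  have hτ0 : τ ^ p = 0 := by
    have h1 := sub_one_pow (K := ZMod p) (p := p) (ρ xb) 1
    rw [pow_one] at h1
    change (ρ xb - 1) ^ p = 0
    rw [h1, ← map_pow, hxbp, map_one, sub_self]
  have hτ1 : τ ^ (p - 1) ≠ 0 := by
    intro h
    rcases Exponent.thmB_rep hS₂ hOp ρ hinj xb 0 (by simpa using hord) (p - 1) h with h1 |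
      ⟨q, n₀, m, Q, hq, hqp, hQ, hnc, h1, h2, h3, h4, -⟩
    · have := hpp.pos
      simp at h1
      omega
    · have hn₀ : n₀ = 1 := by omega
      rw [hn₀, pow_one] at h4
      obtain ⟨k, hk⟩ := hpp.eq_two_or_odd'.resolve_left hp2
      have h2q : 2 ∣ q ^ m := by
        rw [← h4, hk]
        simp
      have hq2 : q = 2 := ((Nat.prime_dvd_prime_iff_eq Nat.prime_two hq).mp (Nat.prime_two.dvd_of_dvd_pow h2q)).symm
      apply hnf
      refine ⟨m, ?_⟩
      rw [← hq2, ← h4]
      have := hpp.pos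
      omega
  have hxT : x ∉ T := by
    intro h
    have h1 : xb = 1 := (QuotientGroup.eq_one_iff _).mpr h
    rw [h1, orderOf_one] at hord
    exact hpp.one_lt.ne hord
  have hxp : x ^ p ∈ T := by
    have h1 := hxbp
    rw [hxb, ← map_pow] at h1
    exact (QuotientGroup.eq_one_iff _).mp h1
  have hact : ∀ t t' : T, t'.1 = x * t.1 * x⁻¹ → π t' = π t + τ (π t) := by
    intro t t' h
    have h1 := hπact x t t' h
    have h2 : τ (π t) = ρ xb (π t) - π t := rfl
    rw [h2, add_sub_cancel, ← h1]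
    rfl
  obtain ⟨R, hRn, hW⟩ := of_jordan (p := p) T π hπadd hπsurj τ x hact hτ0 hτ1 hxT hxp
  -- transport to a type in `Type`
  obtain ⟨W₀, iW, iW', ⟨e⟩⟩ := exists_copy (↥(T ⊔ Subgroup.zpowers x) ⧸ R)
  refine hwr _ (hW.of_equiv e.symm) ?_
  refine Cfsg.Agent.Lib.PReduced.Sections.involves_congr e.symm ?_
  -- the section of `P`
  have hDle : T ⊔ Subgroup.zpowers x ≤ (P₁ : Subgroup (G ⧸ N)) :=
    sup_le (pCore_le_sylow P₁) (Subgroup.zpowers_le.mpr hxP₁)
  have hP₁ : (P₁ : Subgroup (G ⧸ N)) = (P : Subgroup G).map f := Sylow.coe_mapSurjective _ _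
  have hDle' : T ⊔ Subgroup.zpowers x ≤ (P : Subgroup G).map f := hP₁ ▸ hDle
  let φ : ↥(P : Subgroup G) →* ↥((P : Subgroup G).map f) := f.subgroupMap (P : Subgroup G)
  have hφ : Function.Surjective φ := f.subgroupMap_surjective _
  refine Cfsg.Agent.Lib.PReduced.Sections.involves_comap φ hφ ?_
  refine Cfsg.Agent.Lib.PReduced.Sections.involves_of_injective
    (Subgroup.inclusion hDle') (Subgroup.inclusion_injective hDle') ?_
  refine Cfsg.Agent.Lib.PReduced.Sections.involves_of_hom ⊤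
    ((QuotientGroup.mk' R).comp (Subgroup.topEquiv).toMonoidHom) ?_
  intro y
  obtain ⟨d, rfl⟩ := QuotientGroup.mk'_surjective R y
  exact ⟨⟨d, trivial⟩, rfl⟩

end wreath

end Cfsg.Agent.Lib.HallHigman.Wreath
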