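/-
The derived length bound for the `p`-length, `p` odd: the prime `3` needs the structure of the
two-dimensional module of the critical subgroup.
-/
import Cfsg.Agent.Lib.HallHigman.CoreFull
import Cfsg.Agent.Lib.HallHigman.Extraspecial
import Cfsg.Agent.Lib.HallHigman.Wreath
import Cfsg.Agent.Lib.Involutions2.NormalFour
import Cfsg.Agent.Lib.PReduced.SFourSection

set_option autoImplicit false

namespace Cfsg.Agent.Lib.HallHigman.Derived

open Module Cfsg.Agent.Lib.HallHigman.Core Cfsg.Agent.Lib.HallHigman.Irr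
  Cfsg.Agent.Lib.Core.Basic Cfsg.Agent.Lib.Core.PSolvable Cfsg.Agent.Lib.Core.PLength
open scoped commutatorElement

universe u v w

section covariant

variable {K : Type*} [Field K] {U : Type*} [AddCommGroup U] [Module K U] {Q : Type*} [Group Q]

/-- `f` is a non-zero intertwiner between `σ` and `σ ∘ φ`. -/
def Cov (σ : Q →* End K U) (φ : MulAut Q) (f : End K U) : Prop :=
  f ≠ 0 ∧ ∀ g, f * σ g = σ (φ g) * f

variable [FiniteDimensional K U]

theorem Cov.isUnit {σ : Q →* End K U} {φ : MulAut Q} {f : End K U} (h : Cov σ φ f)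
    (hirr : ∀ W : Submodule K U, (∀ g, ∀ w ∈ W, σ g w ∈ W) → W = ⊥ ∨ W = ⊤) : IsUnit f := by
  rw [LinearMap.isUnit_iff_ker_eq_bot]
  have hinv : ∀ g : Q, ∀ w ∈ LinearMap.ker f, σ g w ∈ LinearMap.ker f := by
    intro g w hw
    have hw' : f w = 0 := hw
    change f (σ g w) = 0
    have h1 := LinearMap.congr_fun (h.2 g) w
    simp only [Module.End.mul_apply] at h1
    rw [h1, hw', map_zero]
  rcases hirr _ hinv with h1 | h1
  · exact h1
  · exfalso
    apply h.1
    exact LinearMap.ker_eq_top.mp h1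

variable [IsAlgClosed K] [Nontrivial U]

theorem Cov.scalar {σ : Q →* End K U} {φ : MulAut Q} {f f' : End K U} (h : Cov σ φ f)
    (h' : Cov σ φ f') (hirr : ∀ W : Submodule K U, (∀ g, ∀ w ∈ W, σ g w ∈ W) → W = ⊥ ∨ W = ⊤) :
    ∃ c : K, f' = c • f := by
  obtain ⟨u, rfl⟩ := h.isUnit hirr
  obtain ⟨c, hc⟩ := Extraspecial.schur σ hirr ((u⁻¹ : (End K U)ˣ) * f') (by
    intro g
    have h1 := h.2 g
    have h2 : ((u⁻¹ : (End K U)ˣ) : End K U) * σ (φ g) = σ g * (u⁻¹ : (End K U)ˣ) := by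
      calc ((u⁻¹ : (End K U)ˣ) : End K U) * σ (φ g)
          = (u⁻¹ : (End K U)ˣ) * (σ (φ g) * u) * (u⁻¹ : (End K U)ˣ) := by
            simp [mul_assoc]
        _ = (u⁻¹ : (End K U)ˣ) * (u * σ g) * (u⁻¹ : (End K U)ˣ) := by rw [h1]
        _ = σ g * (u⁻¹ : (End K U)ˣ) := by
            simp [← mul_assoc]
    calc ((u⁻¹ : (End K U)ˣ) : End K U) * f' * σ g
        = (u⁻¹ : (End K U)ˣ) * (f' * σ g) := by rw [mul_assoc]
      _ = (u⁻¹ : (End K U)ˣ) * (σ (φ g) * f') := by rw [h'.2 g]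
      _ = ((u⁻¹ : (End K U)ˣ) * σ (φ g)) * f' := by rw [mul_assoc]
      _ = σ g * ((u⁻¹ : (End K U)ˣ) * f') := by rw [h2, mul_assoc])
  refine ⟨c, ?_⟩
  calc f' = u * ((u⁻¹ : (End K U)ˣ) * f') := by simp [← mul_assoc]
    _ = c • (u : End K U) := by rw [hc, mul_smul_comm, mul_one]

/-- Intertwiners commute with an automorphism of order dividing `3` in characteristic `3`. -/
theorem Cov.comm [CharP K 3] {σ : Q →* End K U} {φ ψ : MulAut Q} {f γ : End K U} (h : Cov σ φ f)
    (hirr : ∀ W : Submodule K U, (∀ g, ∀ w ∈ W, σ g w ∈ W) → W = ⊥ ∨ W = ⊤)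
    (hγ : ∀ g, γ * σ g = σ (ψ g) * γ) (hγ3 : γ ^ 3 = 1) (hφψ : ∀ g, ψ (φ g) = φ (ψ g)) :
    γ * f = f * γ := by
  have hγγ : γ * γ ^ 2 = 1 := by
    rw [← pow_succ', hγ3]
  have hγγ' : γ ^ 2 * γ = 1 := by
    rw [← pow_succ, hγ3]
  have hψ3 : ∀ g, σ (ψ (ψ (ψ g))) = σ g := by
    intro g
    have h1 : γ ^ 3 * σ g = σ (ψ (ψ (ψ g))) * γ ^ 3 := by
      rw [pow_succ, pow_two]
      calc γ * γ * γ * σ g = γ * γ * (γ * σ g) := by rw [mul_assoc]
        _ = γ * (γ * σ (ψ g)) * γ := by rw [hγ]; simp only [mul_assoc]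
        _ = γ * (σ (ψ (ψ g)) * γ) * γ := by rw [hγ]
        _ = (γ * σ (ψ (ψ g))) * γ * γ := by simp only [mul_assoc]
        _ = σ (ψ (ψ (ψ g))) * γ * γ * γ := by rw [hγ]
        _ = _ := by simp only [mul_assoc]
    rw [hγ3, one_mul, mul_one] at h1
    exact h1.symm
  have hγ2 : ∀ g, γ ^ 2 * σ g = σ (ψ (ψ g)) * γ ^ 2 := by
    intro g
    rw [pow_two]
    calc γ * γ * σ g = γ * (γ * σ g) := by rw [mul_assoc]
      _ = γ * (σ (ψ g) * γ) := by rw [hγ]
      _ = (γ * σ (ψ g)) * γ := by rw [mul_assoc]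
      _ = σ (ψ (ψ g)) * γ * γ := by rw [hγ]
      _ = _ := by rw [mul_assoc]
  have hcov : Cov σ φ (γ * f * γ ^ 2) := by
    constructor
    · intro h0
      apply h.1
      calc f = γ ^ 2 * γ * f * (γ ^ 2 * γ) := by rw [hγγ']; simp
        _ = γ ^ 2 * (γ * f * γ ^ 2) * γ := by simp only [mul_assoc]
        _ = 0 := by rw [h0]; simp
    · intro g
      calc γ * f * γ ^ 2 * σ g = γ * f * (γ ^ 2 * σ g) := by rw [mul_assoc]
        _ = γ * (f * σ (ψ (ψ g))) * γ ^ 2 := by rw [hγ2]; simp only [mul_assoc]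
        _ = γ * (σ (φ (ψ (ψ g))) * f) * γ ^ 2 := by rw [h.2]
        _ = (γ * σ (φ (ψ (ψ g)))) * f * γ ^ 2 := by simp only [mul_assoc]
        _ = σ (ψ (φ (ψ (ψ g)))) * γ * f * γ ^ 2 := by rw [hγ]
        _ = σ (φ g) * (γ * f * γ ^ 2) := by
          have e : ψ (φ (ψ (ψ g))) = ψ (ψ (ψ (φ g))) := by
            rw [hφψ g, hφψ (ψ g)]
          rw [e, hψ3]
          simp only [mul_assoc]
  obtain ⟨c, hc⟩ := h.scalar hcov hirr
  have h1 : γ * f = c • (f * γ) := by
    calc γ * f = γ * f * (γ ^ 2 * γ) := by rw [hγγ', mul_one]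
      _ = (γ * f * γ ^ 2) * γ := by simp only [mul_assoc]
      _ = c • (f * γ) := by rw [hc, smul_mul_assoc]
  have hk : ∀ k : ℕ, γ ^ k * f = c ^ k • (f * γ ^ k) := by
    intro k
    induction k with
    | zero => simp
    | succ k ih =>
      calc γ ^ (k + 1) * f = γ * (γ ^ k * f) := by rw [pow_succ', mul_assoc]
        _ = c ^ k • ((γ * f) * γ ^ k) := by rw [ih, mul_smul_comm, mul_assoc]
        _ = c ^ (k + 1) • (f * γ ^ (k + 1)) := by
          rw [h1, smul_mul_assoc, smul_smul, ← pow_succ, mul_assoc, ← pow_succ']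
  have h3 : f = c ^ 3 • f := by
    have e := hk 3
    rw [hγ3, one_mul, mul_one] at e
    exact e
  have h4 : c ^ 3 = 1 := by
    by_contra hne
    apply h.1
    have e : (c ^ 3 - 1) • f = 0 := by
      rw [sub_smul, one_smul, ← h3, sub_self]
    exact (smul_eq_zero.mp e).resolve_left (sub_ne_zero.mpr hne)
  have h5 : c = 1 := by
    haveI : Fact (Nat.Prime 3) := ⟨Nat.prime_three⟩
    have e : (c - 1) ^ 3 = 0 := by
      rw [sub_pow_char c 1, h4, one_pow, sub_self]
    exact sub_eq_zero.mp (pow_eq_zero_iff (by norm_num) |>.mp e)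
  rw [h1, h5, one_smul]

omit [IsAlgClosed K] [Nontrivial U] in
/-- The centraliser of a non-zero square-zero operator in dimension two is commutative. -/
theorem comm_of_two (N : End K U) (hN : N ≠ 0) (hN2 : N ^ 2 = 0) (hdim : finrank K U = 2)
    {f f' : End K U} (h1 : f * N = N * f) (h2 : f' * N = N * f') : f * f' = f' * f := by
  obtain ⟨u, hu⟩ : ∃ u, N u ≠ 0 := by
    by_contra hall
    push Not at hall
    apply hN
    ext v
    simpa using hall v
  have hNN : ∀ v, N (N v) = 0 := by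
    intro v
    have := LinearMap.congr_fun hN2 v
    simpa [pow_two] using this
  have hli : LinearIndependent K ![u, N u] := by
    rw [LinearIndependent.pair_iff]
    intro a b hab
    have h3 := congrArg N hab
    simp only [map_add, map_smul, hNN, smul_zero, add_zero, map_zero] at h3
    have ha : a = 0 := (smul_eq_zero.mp h3).resolve_right hu
    rw [ha, zero_smul, zero_add] at hab
    exact ⟨ha, (smul_eq_zero.mp hab).resolve_right hu⟩
  have hspan : Submodule.span K (Set.range ![u, N u]) = ⊤ :=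
    hli.span_eq_top_of_card_eq_finrank' (by simp [hdim])
  have hdec : ∀ w, ∃ a b : K, w = a • u + b • N u := by
    intro w
    have hw : w ∈ Submodule.span K (Set.range ![u, N u]) := by
      rw [hspan]
      trivial
    rw [Matrix.range_cons, Matrix.range_cons, Matrix.range_empty, Set.union_empty,
      Set.singleton_union, Submodule.mem_span_pair] at hw
    obtain ⟨a, b, h⟩ := hw
    exact ⟨a, b, h.symm⟩
  have hform : ∀ g : End K U, g * N = N * g → ∃ a b : K, g = a • 1 + b • N := by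
    intro g hg
    obtain ⟨a, b, hab⟩ := hdec (g u)
    refine ⟨a, b, ?_⟩
    ext w
    obtain ⟨c, d, rfl⟩ := hdec w
    have h3 : g (N u) = N (g u) := LinearMap.congr_fun hg u
    simp only [map_add, map_smul, LinearMap.add_apply, LinearMap.smul_apply, Module.End.one_apply, h3,
      hab, hNN, smul_zero, add_zero]
  obtain ⟨a, b, rfl⟩ := hform f h1
  obtain ⟨a', b', rfl⟩ := hform f' h2
  simp only [add_mul, mul_add, smul_mul_assoc, mul_smul_comm, one_mul, mul_one, smul_add, smul_smul,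
    mul_comm]
  abel

/-- Two intertwiners of automorphisms commuting with `ψ` give commuting automorphisms on the image
of `σ`. -/
theorem sigma_comm [CharP K 3] (hdim : finrank K U = 2) {σ : Q →* End K U} {ψ φ₁ φ₂ : MulAut Q}
    {γ f₁ f₂ : End K U}
    (hirr : ∀ W : Submodule K U, (∀ g, ∀ w ∈ W, σ g w ∈ W) → W = ⊥ ∨ W = ⊤)
    (hγ : ∀ g, γ * σ g = σ (ψ g) * γ) (hγ3 : γ ^ 3 = 1) (hN : γ - 1 ≠ 0) (hN2 : (γ - 1) ^ 2 = 0)
    (hφ₁ : ∀ g, ψ (φ₁ g) = φ₁ (ψ g)) (hφ₂ : ∀ g, ψ (φ₂ g) = φ₂ (ψ g))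
    (h₁ : Cov σ φ₁ f₁) (h₂ : Cov σ φ₂ f₂) (g : Q) : σ (φ₁ (φ₂ g)) = σ (φ₂ (φ₁ g)) := by
  have hc₁ := h₁.comm hirr hγ hγ3 hφ₁
  have hc₂ := h₂.comm hirr hγ hγ3 hφ₂
  have hcomm : f₁ * f₂ = f₂ * f₁ := by
    apply comm_of_two (γ - 1) hN hN2 hdim
    · rw [mul_sub, sub_mul, mul_one, one_mul, hc₁]
    · rw [mul_sub, sub_mul, mul_one, one_mul, hc₂]
  have e1 : (f₁ * f₂) * σ g = σ (φ₁ (φ₂ g)) * (f₁ * f₂) := by
    calc f₁ * f₂ * σ g = f₁ * (f₂ * σ g) := by rw [mul_assoc]
      _ = f₁ * (σ (φ₂ g) * f₂) := by rw [h₂.2]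
      _ = (f₁ * σ (φ₂ g)) * f₂ := by rw [mul_assoc]
      _ = σ (φ₁ (φ₂ g)) * f₁ * f₂ := by rw [h₁.2]
      _ = _ := by rw [mul_assoc]
  have e2 : (f₂ * f₁) * σ g = σ (φ₂ (φ₁ g)) * (f₂ * f₁) := by
    calc f₂ * f₁ * σ g = f₂ * (f₁ * σ g) := by rw [mul_assoc]
      _ = f₂ * (σ (φ₁ g) * f₁) := by rw [h₁.2]
      _ = (f₂ * σ (φ₁ g)) * f₁ := by rw [mul_assoc]
      _ = σ (φ₂ (φ₁ g)) * f₂ * f₁ := by rw [h₂.2]
      _ = _ := by rw [mul_assoc]
  rw [← hcomm] at e2
  rw [e1] at e2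
  have hu : IsUnit (f₁ * f₂) := (h₁.isUnit hirr).mul (h₂.isUnit hirr)
  exact hu.mul_left_inj.mp e2

end covariant

section twist

variable {K : Type*} [Field K] {V : Type*} [AddCommGroup V] [Module K V] {H : Type*} [Group H]
  {ρ : H →* End K V} {Q : Subgroup H}

/-- The automorphism of `Q` induced by an element of its normaliser. -/
def conjAut (Q : Subgroup H) (b : H) (hb : b ∈ Subgroup.normalizer (Q : Set H)) : MulAut Q :=
  Q.normalizerMonoidHom ⟨b, hb⟩

@[simp] theorem conjAut_coe (b : H) (hb : b ∈ Subgroup.normalizer (Q : Set H)) (g : Q) :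
    ((conjAut Q b hb g : Q) : H) = b * g.1 * b⁻¹ := rfl

/-- A homomorphism from the twist gives an intertwiner. -/
theorem cov_of_homNZ {b : H} (hb : b ∈ Subgroup.normalizer (Q : Set H)) {U : Submodule K V}
    (hU : IsIrr ρ Q U) (h : HomNZ ρ Q (tw ρ b U) U) :
    ∃ f : End K U, Cov (resQ ρ Q U hU.inv) (conjAut Q b hb) f := by
  obtain ⟨f₀, h0, h1, a, ha, hfa⟩ := h
  have hF : ∀ u ∈ U, (f₀ * ρ b) u ∈ U := fun u hu => h0 _ (apply_mem_tw hu)
  refine ⟨(f₀ * ρ b).restrict hF, ?_, ?_⟩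
  · intro hzero
    have ha' : ρ b⁻¹ a ∈ U := mem_tw.mp ha
    apply hfa
    have h2 := LinearMap.congr_fun hzero ⟨_, ha'⟩
    have h3 : ((f₀ * ρ b) (ρ b⁻¹ a)) = 0 := congrArg Subtype.val h2
    rwa [Module.End.mul_apply, rho_apply_inv] at h3
  · intro g
    ext u
    change f₀ (ρ b (ρ g.1 u.1)) = ρ (b * g.1 * b⁻¹) (f₀ (ρ b u.1))
    have e : ρ b (ρ g.1 u.1) = ρ (b * g.1 * b⁻¹) (ρ b u.1) := by
      rw [← Module.End.mul_apply, ← Module.End.mul_apply, ← map_mul, ← map_mul]
      simp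
    rw [e, h1 _ (conj_mem_of_mem_normalizer hb g.2) _ (apply_mem_tw u.2)]

/-- A `3`-element `b` with `(c - 1)(b - 1)^2 = 0` stabilises the isomorphism type of an irreducible
module on which `c` is non-trivial. -/
theorem homNZ_tw_of_quadratic [Finite H] {b c : H} (hb : b ∈ Subgroup.normalizer (Q : Set H))
    {U : Submodule K V} (hU : IsIrr ρ Q U) (hcU : ∀ u ∈ U, ρ c u ∈ U) (hbc : b * c = c * b)
    {e : ℕ} (hb3 : orderOf b = 3 ^ e) (hE : (ρ c - 1) * (ρ b - 1) ^ 2 = 0)
    (hu : ∃ u ∈ U, (ρ c - 1) u ≠ 0) : HomNZ ρ Q (tw ρ b U) U := by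
  classical
  by_contra h0
  have hbn : ∀ i : ℕ, b ^ i ∈ Subgroup.normalizer (Q : Set H) := fun i => Subgroup.pow_mem _ hb i
  let S : ℕ → Prop := fun i => HomNZ ρ Q (tw ρ (b ^ i) U) U
  have hS0 : S 0 := by
    change HomNZ ρ Q (tw ρ (b ^ 0) U) U
    rw [pow_zero, tw_one]
    obtain ⟨a, ha, ha0⟩ := Submodule.exists_mem_ne_zero_of_ne_bot hU.ne_bot
    exact ⟨1, fun a ha => ha, fun g _ a _ => rfl, a, ha, ha0⟩
  have hSadd : ∀ i j, S i → S j → S (i + j) := by
    intro i j hi hj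
    change HomNZ ρ Q (tw ρ (b ^ (i + j)) U) U
    rw [pow_add, tw_mul]
    exact HomNZ.trans (hU.tw (hbn i)) (hj.tw (hbn i)) hi
  have hSmul : ∀ i k, S i → S (i * k) := by
    intro i k hi
    induction k with
    | zero => simpa using hS0
    | succ k ih =>
      rw [mul_add, mul_one]
      exact hSadd _ _ ih hi
  have hScop : ∀ i, ¬ 3 ∣ i → ¬ S i := by
    intro i hi hS
    have hcop : i.Coprime (orderOf b) := by
      rw [hb3]
      exact Nat.Coprime.pow_right _ ((Nat.Prime.coprime_iff_not_dvd Nat.prime_three).mpr hi).symm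
    obtain ⟨m, hm⟩ := exists_pow_eq_self_of_coprime hcop
    have h1 := hSmul i m hS
    change HomNZ ρ Q (tw ρ (b ^ (i * m)) U) U at h1
    rw [pow_mul, hm] at h1
    exact h0 h1
  have he0 : e ≠ 0 := by
    rintro rfl
    apply h0
    rw [pow_zero, orderOf_eq_one_iff] at hb3
    rw [hb3, tw_one]
    obtain ⟨a, ha, ha0⟩ := Submodule.exists_mem_ne_zero_of_ne_bot hU.ne_bot
    exact ⟨1, fun a ha => ha, fun g _ a _ => rfl, a, ha, ha0⟩
  obtain ⟨L, hL⟩ : ∃ L, orderOf b = 3 * L := by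
    rw [hb3]
    exact ⟨3 ^ (e - 1), by rw [← pow_succ', Nat.sub_add_cancel (Nat.pos_of_ne_zero he0)]⟩
  have hLpos : 0 < L := by
    have := orderOf_pos b
    omega
  have hbL : b ^ (3 * L) = 1 := by
    rw [← hL, pow_orderOf_eq_one]
  let W : Fin 3 → Submodule K V := fun i => tw ρ (b ^ (i : ℕ)) U
  have hWirr : ∀ i, IsIrr ρ Q (W i) := fun i => hU.tw (hbn _)
  have hind : iSupIndep W := by
    apply iSupIndep_of_no_hom W hWirr
    intro i j hij hhom
    have hj : (j : ℕ) ≤ 3 * L := by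
      have := j.2
      omega
    have h1 := hhom.tw (hbn (3 * L - j))
    change HomNZ ρ Q (tw ρ _ (tw ρ (b ^ (i : ℕ)) U)) (tw ρ _ (tw ρ (b ^ (j : ℕ)) U)) at h1
    rw [← tw_mul, ← tw_mul, ← pow_add, ← pow_add, Nat.sub_add_cancel hj, hbL, tw_one] at h1
    refine hScop (3 * L - j + i) ?_ h1
    have hne : (i : ℕ) ≠ j := fun h => hij (Fin.ext h)
    have hi3 := i.2
    have hj3 := j.2
    omega
  obtain ⟨u, huU, hu0⟩ := hu
  set w := (ρ c - 1) u with hw
  have hwU : w ∈ U := by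
    rw [hw, LinearMap.sub_apply, Module.End.one_apply]
    exact U.sub_mem (hcU u huU) huU
  have hcomm : (ρ c - 1) * (ρ b - 1) = (ρ b - 1) * (ρ c - 1) := by
    have h1 : ρ c * ρ b = ρ b * ρ c := by
      rw [← map_mul, ← map_mul, hbc]
    simp only [mul_sub, sub_mul, mul_one, one_mul, h1]
    abel
  have h2 : ((ρ b - 1 : End K V) ^ 2) w = 0 := by
    have h3 : (ρ c - 1) * (ρ b - 1) ^ 2 = (ρ b - 1) ^ 2 * (ρ c - 1) := by
      rw [pow_two, ← mul_assoc, hcomm, mul_assoc, hcomm, mul_assoc]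
    rw [h3] at hE
    have h4 := LinearMap.congr_fun hE u
    rw [Module.End.mul_apply, LinearMap.zero_apply] at h4
    exact h4
  have h3 : w = (2 : K) • ρ b w - ρ (b ^ 2) w := by
    have h4 : ((ρ b - 1 : End K V) ^ 2) w = ρ (b ^ 2) w - (2 : K) • ρ b w + w := by
      rw [pow_two, Module.End.mul_apply, map_pow, pow_two, Module.End.mul_apply]
      simp only [LinearMap.sub_apply, Module.End.one_apply, map_sub, two_smul]
      abel
    rw [h4] at h2
    have h5 : ρ (b ^ 2) w - (2 : K) • ρ b w + w = 0 := h2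
    linear_combination (norm := module) h5
  have hmem0 : w ∈ W 0 := by
    change w ∈ tw ρ (b ^ 0) U
    rw [pow_zero, tw_one]
    exact hwU
  have hmem1 : ρ b w ∈ W 1 := by
    change ρ b w ∈ tw ρ (b ^ 1) U
    rw [pow_one]
    exact apply_mem_tw hwU
  have hmem2 : ρ (b ^ 2) w ∈ W 2 := by
    change ρ (b ^ 2) w ∈ tw ρ (b ^ 2) U
    exact apply_mem_tw hwU
  have hsup : w ∈ ⨆ (j : Fin 3) (_ : j ≠ 0), W j := by
    rw [h3]
    apply Submodule.sub_mem
    · apply Submodule.smul_mem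
      exact Submodule.mem_iSup_of_mem 1 (Submodule.mem_iSup_of_mem (by decide) hmem1)
    · exact Submodule.mem_iSup_of_mem 2 (Submodule.mem_iSup_of_mem (by decide) hmem2)
  have hw0 : w = 0 := (Submodule.disjoint_def.mp (hind 0)) w hmem0 hsup
  exact hu0 hw0

end twist

/-- The group-theoretic reduction with a `p`-subgroup of operators centralising `y`. -/
theorem exists_critical_under {H : Type w} [Group H] [Finite H] {p : ℕ} [hp : Fact p.Prime]
    (hsol : Cfsg.IsPSolvable p H) (hOp : Cfsg.pCore p H = ⊥) (A : Subgroup H) (hA : IsPGroup p A)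
    (y : H) (hyA : y ∈ A) (hyZ : ∀ g ∈ A, g * y = y * g) (hordy : orderOf y = p) :
    ∃ (q : ℕ) (_ : Fact q.Prime) (Q : Subgroup H), q ≠ p ∧ IsPGroup q Q ∧
      A ≤ Subgroup.normalizer (Q : Set H) ∧ ⁅Q, Subgroup.zpowers y⁆ = Q ∧ Q ≠ ⊥ ∧
      (∀ g ∈ Q, g * y = y * g → ∀ h ∈ Q, g * h = h * g) := by
  classical
  have hpp : p.Prime := hp.out
  let R := Cfsg.pPrimeCore p H
  have hyR : y ∉ R := by
    intro h
    have h1 := orderOf_coprime_of_mem_pPrimeCore h
    rw [hordy] at h1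
    exact hpp.one_lt.ne' (by simpa using h1)
  let Y := Subgroup.zpowers y
  have hRc : ¬ R ≤ Subgroup.centralizer (Y : Set H) := by
    intro hle
    apply hyR
    have h1 : Y ≤ Subgroup.centralizer (R : Set H) := Subgroup.le_centralizer_iff.mp hle
    exact Reduction.centralizer_pPrimeCore_le_of_isPSolvable hsol hOp (h1 (Subgroup.mem_zpowers y))
  have hRn : R.Normal := inferInstanceAs (Cfsg.pPrimeCore p H).Normal
  have hAR : A ≤ Subgroup.normalizer (R : Set H) := by
    rw [Subgroup.normalizer_eq_top]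
    exact le_top
  have hcopR : (Nat.card R).Coprime p := pPrimeCore_coprime
  have hcopA : (Nat.card A).Coprime (Nat.card R) := by
    obtain ⟨k, hk⟩ := IsPGroup.iff_card.mp hA
    rw [hk]
    exact Nat.Coprime.pow_left _ hcopR.symm
  have hsolA : Group.IsSolvable A := by
    haveI := hA.isNilpotent
    infer_instance
  -- an invariant Sylow subgroup not centralised
  obtain ⟨q, hq, S, hS, hAS, hSc⟩ : ∃ (q : ℕ) (_ : Fact q.Prime) (S : Subgroup H),
      Cfsg.Agent.Lib.Coprime.Action.IsSylowIn q S R ∧ A ≤ Subgroup.normalizer (S : Set H) ∧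
      ¬ S ≤ Subgroup.centralizer (Y : Set H) := by
    by_contra hall
    push Not at hall
    apply hRc
    let C := R ⊓ Subgroup.centralizer (Y : Set H)
    have hCR : C.relIndex R = 1 := by
      by_contra hne
      obtain ⟨q, hq, hqd⟩ := Nat.exists_prime_and_dvd hne
      haveI hq' : Fact q.Prime := ⟨hq⟩
      obtain ⟨S, hS, hAS⟩ := Cfsg.Agent.Lib.Coprime.Action.exists_invariant_sylowIn (p := q) hAR hcopA
        (Or.inl hsolA)
      have hSc := hall q hq' S hS hAS
      have hSC : S ≤ C := le_inf hS.1 hSc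
      exact hS.2.2 (hqd.trans (Subgroup.relIndex_dvd_of_le_left R hSC))
    have h1 := Subgroup.relIndex_eq_one.mp hCR
    exact h1.trans inf_le_right
  have hSq : IsPGroup q S := hS.2.1
  have hSne : S ≠ ⊥ := by
    rintro rfl
    exact hSc bot_le
  have hqq : q.Prime := hq.out
  have hqR : q ≠ p := by
    rintro rfl
    obtain ⟨k, hk⟩ := IsPGroup.iff_card.mp hSq
    have hk0 : k ≠ 0 := by
      rintro rfl
      rw [pow_zero] at hk
      exact hSne (Subgroup.card_eq_one.mp hk)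
    have h1 : q ∣ Nat.card R := by
      calc q ∣ q ^ k := dvd_pow_self q hk0
        _ = Nat.card S := hk.symm
        _ ∣ Nat.card R := Subgroup.card_dvd_of_le hS.1
    exact hpp.one_lt.ne' (Nat.Coprime.eq_one_of_dvd hcopR.symm h1)
  have hYA : Y ≤ A := by
    rw [Subgroup.zpowers_le]
    exact hyA
  have hAY : A ≤ Subgroup.normalizer (Y : Set H) := by
    intro a ha
    apply Cfsg.Agent.Lib.PReduced.SFourSection.mem_normalizer_of_forall_conj_mem
    intro z hz
    have hc : Commute a y := hyZ a ha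
    obtain ⟨k, rfl⟩ := Subgroup.mem_zpowers_iff.mp hz
    rw [(hc.zpow_right k).eq, mul_inv_cancel_right]
    exact hz
  have hcopY : (Nat.card Y).Coprime (Nat.card S) := by
    obtain ⟨k, hk⟩ := IsPGroup.iff_card.mp hSq
    rw [Nat.card_zpowers, hordy, hk]
    exact Nat.Coprime.pow_right _ ((Nat.coprime_primes hpp hqq).mpr hqR.symm)
  have hsolY : Group.IsSolvable Y := by
    infer_instance
  obtain ⟨Q, hQS, hAQ, hQY, hQbot, hZ⟩ := Reduction.exists_minimal A Y S hYA hAY hSq hAS hcopY hsolY hSc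
  refine ⟨q, hq, Q, hqR, hSq.to_le hQS, hAQ, hQY, hQbot, ?_⟩
  intro g hg hgy h hh
  refine hZ g hg ?_ h hh
  intro z hz
  obtain ⟨k, rfl⟩ := Subgroup.mem_zpowers_iff.mp hz
  have h1 : Commute g y := hgy
  exact (h1.zpow_right k).eq

/-- The exceptional case at the prime `3`, over an algebraically closed field. -/
theorem no_commutator_central_three_alg {K : Type*} [Field K] [IsAlgClosed K] [CharP K 3]
    {V : Type*} [AddCommGroup V] [Module K V] [FiniteDimensional K V] {H : Type*} [Group H] [Finite H]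
    (hsol : Cfsg.IsPSolvable 3 H) (hOp : Cfsg.pCore 3 H = ⊥) (ρ' : H →* End K V)
    (hρ' : Function.Injective ρ') (Pb : Subgroup H) (hPb : IsPGroup 3 Pb) (B : Subgroup H)
    (hBP : B ≤ Pb) (c : H) (hcP : c ∈ Pb) (hcZ : ∀ g ∈ Pb, g * c = c * g) (hord : orderOf c = 3)
    (hc : c ∈ ⁅B, B⁆) (hE' : ∀ b ∈ B, (ρ' c - 1) * (ρ' b - 1) ^ 2 = 0) (hc2' : (ρ' c - 1) ^ 2 = 0) :
    False := by
  classical
  obtain ⟨q, hq, Q, hqp, hQ, hPQ, hQY, hQbot, hZ⟩ := exists_critical_under hsol hOp Pb hPb c hcP hcZ hord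
  have hqq : q.Prime := hq.out
  have hq' : (q : K) ≠ 0 := by
    intro h
    have h1 : 3 ∣ q := (CharP.cast_eq_zero_iff K 3 q).mp h
    exact hqp ((Nat.prime_dvd_prime_iff_eq Nat.prime_three hqq).mp h1).symm
  obtain ⟨g₀, hg₀⟩ := (Subgroup.ne_bot_iff_exists_ne_one (H := Q)).mp hQbot
  have hne : ρ' g₀.1 ≠ 1 := by
    intro h
    apply hg₀
    apply Subtype.ext
    apply hρ'
    rw [h]
    exact (map_one ρ').symm
  obtain ⟨U₁, hU₁, hnt⟩ := Reduction.exists_irr_nontrivial hq' ρ' Q hQ g₀.2 hne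
  have hx : c ∈ Subgroup.normalizer (Q : Set H) := hPQ hcP
  have hcpow : c ^ 3 ^ 0 = c := by simp
  have hgen : ∀ U : Submodule K (V), IsInv ρ' Q U →
      (∀ u ∈ U, ρ' (c ^ 3 ^ 0) u = u) → ∀ g ∈ Q, ∀ u ∈ U, ρ' g u = u := by
    intro U hU hy
    refine Reduction.fixed_of_commutator ρ' Q _ hQY hU ?_
    intro z hz u hu
    have hfin : IsOfFinOrder c := isOfFinOrder_of_finite _
    obtain ⟨w, rfl⟩ := hfin.mem_powers_iff_mem_zpowers.mpr hz
    simp only
    rw [map_pow]
    rw [hcpow] at hy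
    induction w with
    | zero => simp
    | succ w ih =>
      rw [pow_succ, Module.End.mul_apply, hy u hu, ih (Subgroup.pow_mem _ (Subgroup.mem_zpowers _) _)]
  rcases CoreFull.core_full (p := 3) hq' hqp.symm ρ' Q hQ c hx 0 (by simpa using hord)
    (by simpa using hZ) hgen hU₁ hnt 2 hc2' with h | ⟨n₀, m, a, U, h1, h2, h3, h4, hnc, h6, h7, hU, hcU, hhom, hfin, u₀, hu₀, hne₀⟩
  · norm_num at h
  have hn₀ : n₀ = 1 := by omega
  have ha : a = 0 := by omega
  subst hn₀
  subst ha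
  simp only [pow_zero, pow_one] at hcU hne₀ h4
  have hdim : finrank K U = 2 := by
    rw [hfin, ← h4]
  haveI hUnt : Nontrivial U := Submodule.nontrivial_iff_ne_bot.mpr hU.ne_bot
  let σ := resQ ρ' Q U hU.inv
  have hirr := resQ_irr hU
  let ψ := conjAut Q c hx
  let γ : End K U := (ρ' c).restrict hcU
  have hγa : ∀ v : U, ((γ v : U) : V) = ρ' c v.1 := fun v => rfl
  have hγ : ∀ g, γ * σ g = σ (ψ g) * γ := by
    intro g
    ext v
    change ρ' c (ρ' g.1 v.1) = ρ' (c * g.1 * c⁻¹) (ρ' c v.1)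
    rw [← Module.End.mul_apply, ← Module.End.mul_apply, ← map_mul, ← map_mul]
    simp
  have hγ3 : γ ^ 3 = 1 := by
    ext v
    have e : ((γ ^ 3) v : V) = ρ' c (ρ' c (ρ' c v.1)) := by
      rw [pow_succ, pow_two]
      rfl
    have hc3 : c * c * c = 1 := by
      have h8 := pow_orderOf_eq_one c
      rw [hord, pow_succ, pow_two] at h8
      exact h8
    rw [e, ← Module.End.mul_apply, ← Module.End.mul_apply, ← map_mul, ← map_mul, hc3, map_one]
    rfl
  have hγN : ∀ (j : ℕ) (v : U), (((γ - 1) ^ j) v : V) = ((ρ' c - 1) ^ j) v.1 := by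
    intro j
    induction j with
    | zero =>
      intro v
      simp
    | succ j ih =>
      intro v
      rw [pow_succ', pow_succ', Module.End.mul_apply, Module.End.mul_apply]
      have e : ∀ w : U, (((γ - 1) w : U) : V) = (ρ' c - 1) w.1 := fun w => rfl
      rw [e, ih]
  have hN : γ - 1 ≠ 0 := by
    intro h0
    have h8 := hγN 1 ⟨u₀, hu₀⟩
    rw [pow_one, h0, LinearMap.zero_apply] at h8
    apply hne₀
    have h9 : (3 : ℕ) - 2 = 1 := by norm_num
    rw [h9]
    exact h8.symm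
  have hN2 : (γ - 1) ^ 2 = 0 := by
    ext v
    rw [hγN, hc2']
    rfl
  have hcov : ∀ b ∈ B, ∃ (hb : b ∈ Subgroup.normalizer (Q : Set H)) (f : End K U),
      Cov σ (conjAut Q b hb) f := by
    intro b hbB
    have hbP := hBP hbB
    have hbn := hPQ hbP
    obtain ⟨e, he⟩ := (IsPGroup.iff_orderOf.mp hPb) ⟨b, hbP⟩
    have he' : orderOf b = 3 ^ e := by
      rw [← he]
      exact (Subgroup.orderOf_mk _ _).symm
    have h8 := homNZ_tw_of_quadratic hbn hU hcU (hcZ b hbP) he' (hE' b hbB)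
      ⟨u₀, hu₀, by
        have h9 : (3 : ℕ) - 2 = 1 := by norm_num
        rw [h9, pow_one] at hne₀
        exact hne₀⟩
    exact ⟨hbn, cov_of_homNZ hbn hU h8⟩
  have hψcomm : ∀ b ∈ B, ∀ (hb : b ∈ Subgroup.normalizer (Q : Set H)) (g : Q),
      ψ (conjAut Q b hb g) = conjAut Q b hb (ψ g) := by
    intro b hbB hb g
    apply Subtype.ext
    change c * (b * g.1 * b⁻¹) * c⁻¹ = b * (c * g.1 * c⁻¹) * b⁻¹
    have h8 : b * c = c * b := hcZ b (hBP hbB)
    have h9 : c * b = b * c := h8.symm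
    calc c * (b * g.1 * b⁻¹) * c⁻¹ = (c * b) * g.1 * (c * b)⁻¹ := by group
      _ = (b * c) * g.1 * (b * c)⁻¹ := by rw [h9]
      _ = _ := by group
  let Tr : Subgroup H :=
    { carrier := {x | x ∈ Subgroup.normalizer (Q : Set H) ∧
        ∀ g ∈ Q, ∀ u ∈ U, ρ' (x * g * x⁻¹) u = ρ' g u}
      mul_mem' := by
        rintro x y ⟨hx1, hx2⟩ ⟨hy1, hy2⟩
        refine ⟨Subgroup.mul_mem _ hx1 hy1, fun g hg u hu => ?_⟩
        have h8 : x * y * g * (x * y)⁻¹ = x * (y * g * y⁻¹) * x⁻¹ := by group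
        rw [h8, hx2 _ (conj_mem_of_mem_normalizer hy1 hg) u hu, hy2 g hg u hu]
      one_mem' := by
        refine ⟨Subgroup.one_mem _, fun g _ u _ => ?_⟩
        simp
      inv_mem' := by
        rintro x ⟨hx1, hx2⟩
        refine ⟨Subgroup.inv_mem _ hx1, fun g hg u hu => ?_⟩
        have h8 := hx2 _ (inv_conj_mem_of_mem_normalizer hx1 hg) u hu
        have h9 : x * (x⁻¹ * g * x) * x⁻¹ = g := by group
        rw [h9] at h8
        rw [inv_inv]
        exact h8.symm }
  have hcommTr : ⁅B, B⁆ ≤ Tr := by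
    rw [Subgroup.commutator_le]
    intro b hb b' hb'
    obtain ⟨hbn, f₁, h₁⟩ := hcov b hb
    obtain ⟨hbn', f₂, h₂⟩ := hcov b' hb'
    refine ⟨?_, fun g hg u hu => ?_⟩
    · rw [commutatorElement_def]
      exact Subgroup.mul_mem _ (Subgroup.mul_mem _ (Subgroup.mul_mem _ hbn hbn')
        (Subgroup.inv_mem _ hbn)) (Subgroup.inv_mem _ hbn')
    · have hbb : b' * b ∈ Subgroup.normalizer (Q : Set H) := Subgroup.mul_mem _ hbn' hbn
      let g₁ : Q := ⟨(b' * b)⁻¹ * g * (b' * b), inv_conj_mem_of_mem_normalizer hbb hg⟩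
      have key := sigma_comm hdim hirr hγ hγ3 hN hN2 (hψcomm b hb hbn) (hψcomm b' hb' hbn') h₁ h₂ g₁
      have h8 := congrArg (fun S : End K U => ((S ⟨u, hu⟩ : U) : V)) key
      change ρ' (b * (b' * g₁.1 * b'⁻¹) * b⁻¹) u = ρ' (b' * (b * g₁.1 * b⁻¹) * b'⁻¹) u at h8
      have e1 : b * (b' * g₁.1 * b'⁻¹) * b⁻¹ = ⁅b, b'⁆ * g * ⁅b, b'⁆⁻¹ := by
        change b * (b' * ((b' * b)⁻¹ * g * (b' * b)) * b'⁻¹) * b⁻¹ = _
        rw [commutatorElement_def]
        group
      have e2 : b' * (b * g₁.1 * b⁻¹) * b'⁻¹ = g := by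
        change b' * (b * ((b' * b)⁻¹ * g * (b' * b)) * b⁻¹) * b'⁻¹ = _
        group
      rw [e1, e2] at h8
      exact h8
  have hcTr : c ∈ Tr := hcommTr hc
  let Fx : Subgroup H :=
    { carrier := {x | ∀ u ∈ U, ρ' x u = u}
      mul_mem' := by
        intro a b ha hb u hu
        rw [map_mul, Module.End.mul_apply, hb u hu, ha u hu]
      one_mem' := by
        intro u _
        simp
      inv_mem' := by
        intro a ha u hu
        have h1 := ha u hu
        calc ρ' a⁻¹ u = ρ' a⁻¹ (ρ' a u) := by rw [h1]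
          _ = u := rho_inv_apply ρ' a u }
  have hQFx : Q ≤ Fx := by
    have hle : ⁅Q, Subgroup.zpowers c⁆ ≤ Fx := by
      rw [Subgroup.commutator_le]
      intro g hg z hz u hu
      have hzTr : z ∈ Tr := (Subgroup.zpowers_le.mpr hcTr) hz
      have e : ⁅g, z⁆ = g * (z * g⁻¹ * z⁻¹) := by
        rw [commutatorElement_def]
        group
      rw [e, map_mul, Module.End.mul_apply, hzTr.2 _ (Q.inv_mem hg) u hu, rho_apply_inv]
    rwa [hQY] at hle
  have hcomm2 : ∀ g h, σ g * σ h = σ h * σ g := by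
    intro g h
    ext v
    change ρ' g.1 (ρ' h.1 v.1) = ρ' h.1 (ρ' g.1 v.1)
    rw [hQFx h.2 _ v.2, hQFx g.2 _ v.2, hQFx h.2 _ v.2]
  have h1dim := finrank_eq_one_of_comm (K := K) (U := U) (Q := Q) σ hirr hcomm2
  omega


/-- The exceptional case at the prime `3`. -/
theorem no_commutator_central_three {F : Type*} [Field F] [CharP F 3] {W : Type*} [AddCommGroup W]
    [Module F W] [FiniteDimensional F W] {H : Type*} [Group H] [Finite H]
    (hsol : Cfsg.IsPSolvable 3 H) (hOp : Cfsg.pCore 3 H = ⊥) (ρ : H →* End F W)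
    (hρ : Function.Injective ρ) (Pb : Subgroup H) (hPb : IsPGroup 3 Pb) (B : Subgroup H)
    (hBP : B ≤ Pb) (c : H) (hcP : c ∈ Pb) (hcZ : ∀ g ∈ Pb, g * c = c * g) (hord : orderOf c = 3)
    (hc : c ∈ ⁅B, B⁆) (hE : ∀ b ∈ B, (ρ c - 1) * (ρ b - 1) ^ 2 = 0) (hc2 : (ρ c - 1) ^ 2 = 0) :
    False := by
  classical
  let K := AlgebraicClosure F
  haveI : CharP K 3 := charP_of_injective_algebraMap (algebraMap F K).injective 3
  let bc := Module.End.baseChangeHom F K W
  let ρ' : H →* End K (TensorProduct F K W) := (bc.toMonoidHom).comp ρ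
  have hρ' : Function.Injective ρ' := by
    intro h₁ h₂ h
    exact hρ (LinearMap.baseChangeHom_injective F W K h)
  have hE' : ∀ b ∈ B, (ρ' c - 1) * (ρ' b - 1) ^ 2 = 0 := by
    intro b hb
    have h1 := congrArg bc (hE b hb)
    rw [map_mul, map_pow, map_sub, map_sub, map_one, map_zero] at h1
    exact h1
  have hc2' : (ρ' c - 1) ^ 2 = 0 := by
    have h1 := congrArg bc hc2
    rw [map_pow, map_sub, map_one, map_zero] at h1
    exact h1
  exact no_commutator_central_three_alg hsol hOp ρ' hρ' Pb hPb B hBP c hcP hcZ hord hc hE' hc2'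

/-- The last non-trivial term of the derived series of a Sylow subgroup lies in `O_p`, if
`O_{p'} = 1` and `p` is odd. -/
theorem derived_last_le_pCore {E : Type u} [Group E] [Finite E] {p : ℕ} [hp : Fact p.Prime]
    (hp2 : p ≠ 2) (hS : Cfsg.IsPSolvable p E) (hred : Cfsg.pPrimeCore p E = ⊥) (P : Sylow p E) (d : ℕ)
    (hd : derivedSeries ↥(P : Subgroup E) (d + 1) = ⊥) :
    (derivedSeries ↥(P : Subgroup E) d).map (P : Subgroup E).subtype ≤ Cfsg.pCore p E := by
  classical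
  have hpp : p.Prime := hp.out
  let T := Cfsg.pCore p E
  have hTn : T.Normal := inferInstanceAs (Cfsg.pCore p E).Normal
  have hTP : T ≤ (P : Subgroup E) := pCore_le_sylow P
  let mk := QuotientGroup.mk' T
  have hmk : Function.Surjective mk := QuotientGroup.mk'_surjective T
  have hS₂ : Cfsg.IsPSolvable p (E ⧸ T) := isPSolvable_of_surjective mk hmk hS
  have hOp : Cfsg.pCore p (E ⧸ T) = ⊥ := pCore_quotient_eq_bot
  obtain ⟨V, i1, i2, i3, ρ, π, hinj, hπadd, hπsurj, hπact, -⟩ :=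
    Exponent.exists_faithful_module hS hred
  have hC : ∀ e : E, (∀ s ∈ T, e * s = s * e) → e ∈ T := by
    intro e he
    have h1 : ρ (e : E ⧸ T) = 1 := by
      ext v
      obtain ⟨s, rfl⟩ := hπsurj v
      rw [hπact e s s (by
        change s.1 = e * s.1 * e⁻¹
        rw [he s.1 s.2, mul_inv_cancel_right]), Module.End.one_apply]
    have h2 : (e : E ⧸ T) = 1 := hinj (by rw [h1, map_one])
    exact (QuotientGroup.eq_one_iff _).mp h2
  cases d with
  | zero =>
    rintro _ ⟨a, -, rfl⟩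
    apply hC
    intro s hs
    have h1 : ⁅a, (⟨s, hTP hs⟩ : (P : Subgroup E))⁆ ∈ derivedSeries ↥(P : Subgroup E) 1 :=
      Subgroup.commutator_mem_commutator (Subgroup.mem_top _) (Subgroup.mem_top _)
    rw [hd, Subgroup.mem_bot, commutatorElement_eq_one_iff_mul_comm] at h1
    exact congrArg Subtype.val h1
  | succ d =>
    let P' := (P : Subgroup E)
    let B := (derivedSeries P' d).map P'.subtype
    let A := (derivedSeries P' (d + 1)).map P'.subtype
    have hAB : A = ⁅B, B⁆ := by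
      change (derivedSeries P' (d + 1)).map P'.subtype = _
      rw [derivedSeries_succ, Subgroup.map_commutator]
    have hAcomm : ∀ x ∈ A, ∀ y ∈ A, x * y = y * x := by
      rintro _ ⟨x, hx, rfl⟩ _ ⟨y, hy, rfl⟩
      have h1 : ⁅x, y⁆ ∈ derivedSeries P' (d + 2) := Subgroup.commutator_mem_commutator hx hy
      rw [hd, Subgroup.mem_bot, commutatorElement_eq_one_iff_mul_comm] at h1
      exact congrArg Subtype.val h1
    have hnorm : ∀ (n : ℕ) (x : E), x ∈ P' → ∀ b ∈ (derivedSeries P' n).map P'.subtype,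
        x * b * x⁻¹ ∈ (derivedSeries P' n).map P'.subtype := by
      rintro n x hx _ ⟨b, hb, rfl⟩
      have h1 := (derivedSeries_normal P' n).conj_mem b hb ⟨x, hx⟩
      exact ⟨_, h1, rfl⟩
    have hAT : A ≤ T := by
      by_contra hAT
      let Pb : Subgroup (E ⧸ T) := P'.map mk
      have hPb : IsPGroup p Pb := P.2.map mk
      let Ab : Subgroup (E ⧸ T) := A.map mk
      let Bb : Subgroup (E ⧸ T) := B.map mk
      have hAb : Ab = ⁅Bb, Bb⁆ := by
        change A.map mk = _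
        rw [hAB, Subgroup.map_commutator]
      let N : Subgroup Pb := Ab.subgroupOf Pb
      haveI hNn : N.Normal := by
        constructor
        intro n hn g
        have hn' : n.1 ∈ Ab := hn
        obtain ⟨a, ha, hae⟩ := hn'
        obtain ⟨x, hx, hxe⟩ := g.2
        change (g * n * g⁻¹).1 ∈ Ab
        refine ⟨x * a * x⁻¹, hnorm (d + 1) x hx a ha, ?_⟩
        change mk (x * a * x⁻¹) = g.1 * n.1 * g.1⁻¹
        rw [map_mul, map_mul, map_inv, hxe, hae]
      have hN1 : N ≠ ⊥ := by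
        intro hbot
        apply hAT
        intro a ha
        have h1 : mk a ∈ Pb := by
          have h2 : a ∈ P' := by
            obtain ⟨a', -, rfl⟩ := ha
            exact a'.2
          exact ⟨a, h2, rfl⟩
        have h2 : (⟨mk a, h1⟩ : Pb) ∈ N := ⟨a, ha, rfl⟩
        rw [hbot, Subgroup.mem_bot] at h2
        have h3 : mk a = 1 := congrArg Subtype.val h2
        exact (QuotientGroup.eq_one_iff a).mp h3
      obtain ⟨c₀, hc₀⟩ := (Subgroup.ne_bot_iff_exists_ne_one (H := N ⊓ Subgroup.center Pb)).mp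
        (Cfsg.Agent.Lib.Involutions2.NormalFour.inf_center_ne_bot hPb N hN1)
      obtain ⟨k, hk⟩ := (IsPGroup.iff_orderOf.mp hPb) c₀.1
      have hk0 : k ≠ 0 := by
        rintro rfl
        rw [pow_zero, orderOf_eq_one_iff] at hk
        exact hc₀ (Subtype.ext hk)
      obtain ⟨j, rfl⟩ := Nat.exists_eq_succ_of_ne_zero hk0
      let c₂ : Pb := c₀.1 ^ p ^ j
      have hc₂mem : c₂ ∈ N ⊓ Subgroup.center Pb := Subgroup.pow_mem _ c₀.2 _
      have hc₂p : c₂ ^ p = 1 := by
        change (c₀.1 ^ p ^ j) ^ p = 1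
        rw [← pow_mul, ← pow_succ, ← Nat.succ_eq_add_one, ← hk, pow_orderOf_eq_one]
      have hc₂1 : c₂ ≠ 1 := by
        intro h
        have h1 := orderOf_dvd_of_pow_eq_one h
        rw [hk] at h1
        have h2 := (Nat.pow_dvd_pow_iff_le_right hpp.one_lt).mp h1
        omega
      have hc₂o : orderOf c₂ = p := orderOf_eq_prime hc₂p hc₂1
      let c : E ⧸ T := c₂.1
      have hcAb : c ∈ Ab := hc₂mem.1
      have hcP : c ∈ Pb := c₂.2
      have hcZ : ∀ g ∈ Pb, g * c = c * g := by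
        intro g hg
        have h1 := Subgroup.mem_center_iff.mp hc₂mem.2 ⟨g, hg⟩
        exact congrArg Subtype.val h1
      have hcord : orderOf c = p := by
        rw [← hc₂o]
        exact Subgroup.orderOf_coe _
      obtain ⟨a, ha, hae⟩ := hcAb
      have hπ1 : π 1 = 0 := by
        have := hπadd 1 1
        rw [mul_one] at this
        simpa using this
      have hform : ∀ (g : E) (s : T) (hm : g * s.1 * g⁻¹ * s.1⁻¹ ∈ T),
          (ρ (g : E ⧸ T) - 1) (π s) = π ⟨_, hm⟩ := by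
        intro g s hm
        have hm' : g * s.1 * g⁻¹ ∈ T := hTn.conj_mem _ s.2 g
        have h1 := hπact g s ⟨_, hm'⟩ rfl
        have e : (⟨_, hm'⟩ : T) = ⟨_, hm⟩ * s := by
          apply Subtype.ext
          change g * s.1 * g⁻¹ = g * s.1 * g⁻¹ * s.1⁻¹ * s.1
          group
        rw [LinearMap.sub_apply, h1, e, hπadd, Module.End.one_apply, add_sub_cancel_right]
      have hcommT : ∀ (g : E) (s : T), g * s.1 * g⁻¹ * s.1⁻¹ ∈ T := by
        intro g s
        exact T.mul_mem (hTn.conj_mem _ s.2 g) (T.inv_mem s.2)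
      have hzero : ∀ s : T, s.1 ∈ A → (ρ c - 1) (π s) = 0 := by
        intro s hs
        have hc : c = (a : E ⧸ T) := hae.symm
        rw [hc, hform a s (hcommT a s)]
        have h1 : (⟨_, hcommT a s⟩ : T) = 1 := by
          apply Subtype.ext
          change a * s.1 * a⁻¹ * s.1⁻¹ = 1
          rw [hAcomm a ha s.1 hs]
          group
        rw [h1, hπ1]
      have hBle : B ≤ P' := Subgroup.map_subtype_le _
      have hAle : A ≤ P' := Subgroup.map_subtype_le _
      have hc2 : (ρ c - 1) ^ 2 = 0 := by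
        ext v
        obtain ⟨s, rfl⟩ := hπsurj v
        rw [pow_two, Module.End.mul_apply]
        have hc : c = (a : E ⧸ T) := hae.symm
        have h1 := hform a s (hcommT a s)
        rw [← hc] at h1
        rw [h1, hzero]
        · rfl
        · change a * s.1 * a⁻¹ * s.1⁻¹ ∈ A
          have h2 : s.1 * a⁻¹ * s.1⁻¹ ∈ A := hnorm (d + 1) _ (hTP s.2) _ (A.inv_mem ha)
          have e : a * s.1 * a⁻¹ * s.1⁻¹ = a * (s.1 * a⁻¹ * s.1⁻¹) := by group
          rw [e]
          exact A.mul_mem ha h2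
      have hE : ∀ b ∈ Bb, (ρ c - 1) * (ρ b - 1) ^ 2 = 0 := by
        rintro _ ⟨b₀, hb₀, rfl⟩
        ext v
        obtain ⟨s, rfl⟩ := hπsurj v
        rw [pow_two, Module.End.mul_apply, Module.End.mul_apply]
        have h1 := hform b₀ s (hcommT b₀ s)
        have hmk0 : mk b₀ = (b₀ : E ⧸ T) := rfl
        rw [hmk0, h1]
        have hs₁ : b₀ * s.1 * b₀⁻¹ * s.1⁻¹ ∈ B := by
          have h2 : s.1 * b₀⁻¹ * s.1⁻¹ ∈ B := hnorm d _ (hTP s.2) _ (B.inv_mem hb₀)
          have e : b₀ * s.1 * b₀⁻¹ * s.1⁻¹ = b₀ * (s.1 * b₀⁻¹ * s.1⁻¹) := by group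
          rw [e]
          exact B.mul_mem hb₀ h2
        rw [hform b₀ _ (hcommT b₀ _), hzero]
        · rfl
        · rw [hAB]
          exact Subgroup.commutator_mem_commutator hb₀ hs₁
      have hple : p ≤ 3 := by
        rcases Exponent.thmB_rep hS₂ hOp ρ hinj c 0 (by simpa using hcord) 2 hc2 with h |
          ⟨q, n₀, m, Q, hq, hqp, hQ, hnc, h1, h2, h3, h4, h5⟩
        · have : p ≤ 2 := by simpa using h
          omega
        · have hn₀ : n₀ = 1 := by omega
          rw [hn₀] at h5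
          simp only [zero_add, Nat.sub_self, pow_zero, one_mul, pow_one] at h5
          omega
      have hp3 : p = 3 := by
        have := hpp.two_le
        omega
      subst hp3
      refine no_commutator_central_three hS₂ hOp ρ hinj Pb hPb Bb (Subgroup.map_mono hBle) c hcP hcZ hcord
        ?_ hE hc2
      rw [← hAb]
      exact ⟨a, ha, hae⟩
    exact hAT

/-- **Hall-Higman**: the `p`-length is at most the derived length of the Sylow `p`-subgroups, `p` odd. -/
theorem pLength_le_derived {p : ℕ} [hp : Fact p.Prime] (hp2 : p ≠ 2) (d : ℕ) :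
    ∀ (G : Type u) [Group G] [Finite G], Cfsg.IsPSolvable p G →
      (∀ P : Sylow p G, derivedSeries ↥(P : Subgroup G) d = ⊥) → Cfsg.PLengthLE p d G := by
  have hpp : p.Prime := hp.out
  induction d with
  | zero =>
    intro G _ _ hS hd
    rw [pLengthLE_zero_iff, Nat.coprime_comm, Nat.Prime.coprime_iff_not_dvd hpp]
    intro hdvd
    obtain ⟨P⟩ : Nonempty (Sylow p G) := inferInstance
    have h1 := P.dvd_card_of_dvd_card hdvd
    have h2 := hd P
    rw [derivedSeries_zero] at h2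
    have h3 : Nat.card (P : Subgroup G) = 1 := by
      rw [← Subgroup.card_top (G := P), h2, Subgroup.card_bot]
    rw [h3] at h1
    exact hpp.one_lt.ne' (Nat.dvd_one.mp h1)
  | succ d ih =>
    intro G _ _ hS hd
    let N := Cfsg.pPrimeCore p G
    let f := QuotientGroup.mk' N
    have hf : Function.Surjective f := QuotientGroup.mk'_surjective N
    have hS₁ : Cfsg.IsPSolvable p (G ⧸ N) := isPSolvable_of_surjective f hf hS
    have hred : Cfsg.pPrimeCore p (G ⧸ N) = ⊥ := pPrimeCore_quotient_eq_bot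
    let T := Cfsg.pCore p (G ⧸ N)
    let f₂ := QuotientGroup.mk' T
    have hf₂ : Function.Surjective f₂ := QuotientGroup.mk'_surjective T
    have hS₂ : Cfsg.IsPSolvable p ((G ⧸ N) ⧸ T) := isPSolvable_of_surjective f₂ hf₂ hS₁
    have hdmap : ∀ {X Y : Type u} [Group X] [Group Y] (φ : X →* Y) (K : Subgroup X) (K' : Subgroup Y) (n : ℕ),
        K' = K.map φ → derivedSeries K n = ⊥ → derivedSeries K' n = ⊥ := by
      intro X Y _ _ φ K K' n hK h
      subst hK
      have h1 := map_derivedSeries_eq (f := φ.subgroupMap K) (φ.subgroupMap_surjective K) n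
      rw [← h1, h, Subgroup.map_bot]
    have hd₁ : ∀ P₁ : Sylow p (G ⧸ N), derivedSeries ↥(P₁ : Subgroup (G ⧸ N)) (d + 1) = ⊥ := by
      intro P₁
      obtain ⟨S, rfl⟩ := Sylow.mapSurjective_surjective hf p P₁
      exact hdmap f (S : Subgroup G) _ _ (Sylow.coe_mapSurjective _ _) (hd S)
    have hd₂ : ∀ P₂ : Sylow p ((G ⧸ N) ⧸ T), derivedSeries ↥(P₂ : Subgroup ((G ⧸ N) ⧸ T)) d = ⊥ := by
      intro P₂
      obtain ⟨S, rfl⟩ := Sylow.mapSurjective_surjective hf₂ p P₂
      have h1 := derived_last_le_pCore hp2 hS₁ hred S d (hd₁ S)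
      have hK : ((S.mapSurjective hf₂ : Sylow p _) : Subgroup ((G ⧸ N) ⧸ T)) =
          (S : Subgroup (G ⧸ N)).map f₂ := Sylow.coe_mapSurjective _ _
      have key : ∀ (K' : Subgroup ((G ⧸ N) ⧸ T)), K' = (S : Subgroup (G ⧸ N)).map f₂ →
          derivedSeries K' d = ⊥ := by
        intro K' hK'
        subst hK'
        have h2 := map_derivedSeries_eq (f := f₂.subgroupMap (S : Subgroup (G ⧸ N)))
          (f₂.subgroupMap_surjective _) d
        rw [← h2, Subgroup.map_eq_bot_iff]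
        intro s hs
        apply Subtype.ext
        exact (QuotientGroup.eq_one_iff _).mpr (h1 ⟨s, hs, rfl⟩)
      exact key _ hK
    have hIH := ih _ hS₂ hd₂
    have h1 : Cfsg.PLengthLE p (1 + d) (G ⧸ N) := by
      refine PLengthLE.of_ker f₂ hf₂ ?_ hIH
      rw [QuotientGroup.ker_mk']
      exact pLengthLE_one_of_isPGroup pCore_isPGroup
    have h2 : Cfsg.PLengthLE p (0 + (1 + d)) G := by
      refine PLengthLE.of_ker f hf ?_ h1
      rw [QuotientGroup.ker_mk']
      exact pLengthLE_zero_iff.mpr pPrimeCore_coprime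
    rwa [zero_add, add_comm] at h2

end Cfsg.Agent.Lib.HallHigman.Derived
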