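/-
Elements acting as transvections on a faithful module of a `p`-solvable group with `O_p = 1`.
-/
import Cfsg.Agent.Lib.HallHigman.Wreath
import Cfsg.Agent.Lib.PReduced.SFourSection

set_option autoImplicit false

namespace Cfsg.Agent.Lib.HallHigman.Transvection

open Module Cfsg.Agent.Lib.HallHigman.Core Cfsg.Agent.Lib.HallHigman.Irr
  Cfsg.Agent.Lib.Core.Basic Cfsg.Agent.Lib.Core.PSolvable Cfsg.Agent.Lib.Core.PLength

universe u

section linear

variable {F : Type*} [Field F] {V : Type*} [AddCommGroup V] [Module F V] {H : Type*} [Group H]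

/-- The functional of a transvection. -/
theorem exists_functional (T : End F V) (a : V) (ha : a ≠ 0)
    (hrank : ∀ v, ∃ c : F, T v - v = c • a) (hfix : T a = a) :
    ∃ φ : V →ₗ[F] F, φ a = 0 ∧ ∀ v, T v = v + φ v • a := by
  obtain ⟨ψ, hψ⟩ : ∃ ψ : Module.Dual F V, ψ a = 1 := by
    have h1 : ∃ ψ₀ : Module.Dual F V, ψ₀ a ≠ 0 := by
      by_contra hall
      push Not at hall
      exact ha ((Module.forall_dual_apply_eq_zero_iff F a).mp hall)
    obtain ⟨ψ₀, h2⟩ := h1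
    exact ⟨(ψ₀ a)⁻¹ • ψ₀, by simp [h2]⟩
  refine ⟨ψ ∘ₗ (T - 1), ?_, ?_⟩
  · simp [hfix]
  · intro v
    obtain ⟨c, hc⟩ := hrank v
    have h1 : (ψ ∘ₗ (T - 1)) v = c := by
      change ψ (T v - v) = c
      rw [hc, map_smul, hψ, smul_eq_mul, mul_one]
    rw [h1, ← hc]
    abel

variable (ρ : H →* End F V) (x g : H) (a : V) (φ : V →ₗ[F] F)

/-- The conjugate transvection. -/
theorem conj_apply (hx : ∀ v, ρ x v = v + φ v • a) (v : V) :
    ρ (g * x * g⁻¹) v = v + φ (ρ g⁻¹ v) • ρ g a := by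
  rw [map_mul, map_mul, Module.End.mul_apply, Module.End.mul_apply, hx, map_add, map_smul,
    rho_apply_inv]

theorem inv_apply (hφa : φ a = 0) (hx : ∀ v, ρ x v = v + φ v • a) (v : V) :
    ρ x⁻¹ v = v - φ v • a := by
  have h1 : ρ x (v - φ v • a) = v := by
    rw [hx, map_sub, map_smul, hφa, smul_zero, sub_zero]
    abel
  calc ρ x⁻¹ v = ρ x⁻¹ (ρ x (v - φ v • a)) := by rw [h1]
    _ = v - φ v • a := rho_inv_apply ρ x _

/-- The product of two transvections. -/
theorem t_apply (hφa : φ a = 0) (hx : ∀ v, ρ x v = v + φ v • a) (v : V) :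
    ρ (x⁻¹ * (g * x * g⁻¹)) v =
      v + φ (ρ g⁻¹ v) • ρ g a - (φ v + φ (ρ g⁻¹ v) * φ (ρ g a)) • a := by
  rw [map_mul, Module.End.mul_apply, conj_apply ρ x g a φ hx, inv_apply ρ x a φ hφa hx, map_add,
    map_smul, smul_eq_mul, add_smul]

/-- Unipotent elements of order prime to the characteristic are trivial. -/
theorem eq_one_of_unipotent {p : ℕ} [hp : Fact p.Prime] [CharP F p] (hρ : Function.Injective ρ)
    (t : H) (ht : (orderOf t).Coprime p) (k : ℕ) (hk : (ρ t - 1) ^ k = 0) : t = 1 := by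
  have hpp : p.Prime := hp.out
  have hle : k ≤ p ^ k := (Nat.lt_pow_self hpp.one_lt).le
  have h1 : (ρ t - 1) ^ p ^ k = 0 := pow_eq_zero_of_le hle hk
  rw [sub_one_pow (K := F) (p := p), ← map_pow, sub_eq_zero] at h1
  have h2 : t ^ p ^ k = 1 := hρ (by rw [h1, map_one])
  have h3 : orderOf t ∣ p ^ k := orderOf_dvd_of_pow_eq_one h2
  have h4 : orderOf t = 1 := Nat.Coprime.eq_one_of_dvd (Nat.Coprime.pow_right k ht) h3
  exact orderOf_eq_one_iff.mp h4

/-- If `φ (g⁻¹ a) = 0` then the transvection `x` commutes with `g`, if the product has order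
prime to the characteristic. -/
theorem conj_eq_of_mu_zero {p : ℕ} [hp : Fact p.Prime] [CharP F p] (hρ : Function.Injective ρ)
    (hφa : φ a = 0) (hx : ∀ v, ρ x v = v + φ v • a) (hμ : φ (ρ g⁻¹ a) = 0)
    (ht : (orderOf (x⁻¹ * (g * x * g⁻¹))).Coprime p) : g * x * g⁻¹ = x := by
  have ht1 := eq_one_of_unipotent ρ hρ (x⁻¹ * (g * x * g⁻¹)) ht 3 (by
    have h0 : ∀ v, (ρ (x⁻¹ * (g * x * g⁻¹)) - 1) v =
        φ (ρ g⁻¹ v) • ρ g a - (φ v + φ (ρ g⁻¹ v) * φ (ρ g a)) • a := by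
      intro v
      rw [LinearMap.sub_apply, t_apply ρ x g a φ hφa hx, Module.End.one_apply]
      abel
    set R : End F V := ρ (x⁻¹ * (g * x * g⁻¹)) - 1 with hR
    have hRa : R a = 0 := by
      rw [h0, hμ, hφa]
      simp
    have hgg : φ (ρ g⁻¹ (ρ g a)) = 0 := by
      rw [rho_inv_apply, hφa]
    have hRa' : R (ρ g a) = - (φ (ρ g a) • a) := by
      rw [h0, hgg]
      simp
    have hRsm : ∀ c : F, R (c • a) = 0 := by
      intro c
      rw [map_smul, hRa, smul_zero]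
    have hR2 : ∀ v, R (R v) = (-(φ (ρ g⁻¹ v) * φ (ρ g a))) • a := by
      intro v
      rw [h0 v, map_sub, map_smul, hRa', hRsm, sub_zero, smul_neg, neg_smul, mul_smul]
    ext v
    have e : (R ^ 3) v = R (R (R v)) := by
      simp [pow_succ]
    rw [e, hR2 v, hRsm, LinearMap.zero_apply])
  have h2 : x⁻¹ * (g * x * g⁻¹) = 1 := ht1
  calc g * x * g⁻¹ = x * (x⁻¹ * (g * x * g⁻¹)) := by group
    _ = x := by rw [h2, mul_one]

/-- Operators are determined by their values on the two centres and on the common kernel. -/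
theorem end_ext (φ φ' : V →ₗ[F] F) (a a' : V) (hφa : φ a = 0) (hφ'a' : φ' a' = 0) (hl : φ a' ≠ 0)
    (hm : φ' a ≠ 0) (A B : End F V) (h1 : A a = B a) (h2 : A a' = B a')
    (h3 : ∀ w, φ w = 0 → φ' w = 0 → A w = B w) : A = B := by
  ext v
  let b₁ := φ' v / φ' a
  let b₂ := φ v / φ a'
  let w := v - b₁ • a - b₂ • a'
  have hw1 : φ w = 0 := by
    simp only [w, map_sub, map_smul, hφa, smul_eq_mul, mul_zero, sub_zero, b₂]
    rw [div_mul_cancel₀ _ hl, sub_self]
  have hw2 : φ' w = 0 := by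
    simp only [w, map_sub, map_smul, hφ'a', smul_eq_mul, mul_zero, sub_zero, b₁]
    rw [div_mul_cancel₀ _ hm, sub_self]
  have e : v = b₁ • a + b₂ • a' + w := by
    simp only [w]
    abel
  rw [e, map_add, map_add, map_add, map_add, map_smul, map_smul, map_smul, map_smul, h1, h2,
    h3 w hw1 hw2]

/-- The case `λ μ = 1`. -/
theorem pair_six (T : End F V) (φ φ' : V →ₗ[F] F) (a a' : V) (hφa : φ a = 0) (hφ'a' : φ' a' = 0)
    (hT : ∀ v, T v = v + φ' v • a' - (φ v + φ' v * φ a') • a) (hs : φ a' * φ' a = 1) :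
    T ^ 6 = 1 ∧ T a = φ' a • a' ∧ (T ^ 2) a' = (- φ a') • a := by
  have hl : φ a' ≠ 0 := left_ne_zero_of_mul_eq_one hs
  have hm : φ' a ≠ 0 := right_ne_zero_of_mul_eq_one hs
  have hs' : φ' a * φ a' = 1 := by rw [mul_comm, hs]
  have hTa : T a = φ' a • a' := by
    rw [hT, hφa, zero_add, hs', one_smul]
    abel
  have hTa' : T a' = a' - φ a' • a := by
    rw [hT, hφ'a', zero_smul, add_zero, zero_mul, add_zero]
  have hT2a : T (T a) = φ' a • a' - a := by
    rw [hTa, map_smul, hTa', smul_sub, smul_smul, hs', one_smul]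
  have hT2a' : T (T a') = (- φ a') • a := by
    rw [hTa', map_sub, hTa', map_smul, hTa, smul_smul, hs, one_smul, neg_smul]
    abel
  have hT3a : T (T (T a)) = - a := by
    rw [hT2a, map_sub, map_smul, hTa', hTa, smul_sub, smul_smul, hs']
    simp
  have hT3a' : T (T (T a')) = - a' := by
    rw [hT2a', map_smul, hTa, smul_smul, neg_mul, hs, neg_smul, one_smul]
  have hpow : ∀ (k : ℕ) (v : V), (T ^ k) v = T^[k] v := by
    intro k v
    rw [Module.End.pow_apply]
  refine ⟨?_, hTa, ?_⟩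
  · apply end_ext φ φ' a a' hφa hφ'a' hl hm
    · rw [hpow, Module.End.one_apply]
      simp only [Function.iterate_succ, Function.iterate_zero, Function.comp, id]
      rw [hT3a, map_neg, map_neg, map_neg, hT3a, neg_neg]
    · rw [hpow, Module.End.one_apply]
      simp only [Function.iterate_succ, Function.iterate_zero, Function.comp, id]
      rw [hT3a', map_neg, map_neg, map_neg, hT3a', neg_neg]
    · intro w h1 h2
      have hw : T w = w := by
        rw [hT, h1, h2]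
        simp
      rw [hpow, Module.End.one_apply]
      simp only [Function.iterate_succ, Function.iterate_zero, Function.comp, id]
      simp only [hw]
  · rw [hpow]
    simpa using hT2a'

/-- The case `λ μ = -1` in characteristic `3`. -/
theorem pair_sq (h3 : (3 : F) = 0) (T : End F V) (φ φ' : V →ₗ[F] F) (a a' : V) (hφa : φ a = 0)
    (hφ'a' : φ' a' = 0)
    (hT : ∀ v, T v = v + φ' v • a' - (φ v + φ' v * φ a') • a) (hs : φ a' * φ' a = -1) :
    (T ^ 2) a = - a ∧ (T ^ 2) a' = - a' ∧ ∀ w, φ w = 0 → φ' w = 0 → (T ^ 2) w = w := by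
  have hs' : φ' a * φ a' = -1 := by rw [mul_comm, hs]
  have hTa : T a = (-1 : F) • a + φ' a • a' := by
    rw [hT, hφa, zero_add, hs']
    linear_combination (norm := module) h3 • a
  have hTa' : T a' = a' - φ a' • a := by
    rw [hT, hφ'a', zero_smul, add_zero, zero_mul, add_zero]
  refine ⟨?_, ?_, ?_⟩
  · rw [pow_two, Module.End.mul_apply, hTa, map_add, map_smul, map_smul, hTa, hTa']
    linear_combination (norm := module) (h3 - hs') • a
  · rw [pow_two, Module.End.mul_apply, hTa', map_sub, map_smul, hTa, hTa']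
    linear_combination (norm := module) (h3 - hs) • a'
  · intro w h1 h2
    have hw : T w = w := by
      rw [hT, h1, h2]
      simp
    rw [pow_two, Module.End.mul_apply, hw, hw]

end linear

section group

/-- Lifting an element of order prime to `p` along a surjection. -/
theorem exists_lift_coprime {E K : Type*} [Group E] [Group K] [Finite E] {p : ℕ} [hp : Fact p.Prime]
    (f : E →* K) (hf : Function.Surjective f) (z : K) (hz : (orderOf z).Coprime p) :
    ∃ z' : E, f z' = z ∧ (orderOf z').Coprime p := by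
  have hpp : p.Prime := hp.out
  obtain ⟨z₀, rfl⟩ := hf z
  have hN : orderOf z₀ ≠ 0 := (orderOf_pos z₀).ne'
  obtain ⟨s, n', hn', hN'⟩ := Nat.exists_eq_pow_mul_and_not_dvd hN p hpp.ne_one
  obtain ⟨u, hu⟩ := exists_pow_eq_self_of_coprime (Nat.Coprime.pow_right s hz).symm
  refine ⟨(z₀ ^ p ^ s) ^ u, ?_, ?_⟩
  · rw [map_pow, map_pow]
    exact hu
  · have h1 : ((z₀ ^ p ^ s) ^ u) ^ n' = 1 := by
      rw [← pow_mul, ← pow_mul, show p ^ s * (u * n') = (p ^ s * n') * u by ring, pow_mul, ← hN',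
        pow_orderOf_eq_one, one_pow]
    have h2 := orderOf_dvd_of_pow_eq_one h1
    refine Nat.Coprime.coprime_dvd_left h2 ?_
    exact ((Nat.Prime.coprime_iff_not_dvd hpp).mpr hn').symm

variable {E : Type*} [Group E] [Finite E] {p : ℕ} [hp : Fact p.Prime] {V : Type*} [AddCommGroup V]
  [Module (ZMod p) V]

/-- Elements of order prime to `p` commuting with a lift `y₀`, quadratic on `V`, fix the image of
`y₀ ^ p` in `V`. -/
theorem fixed_of_commuting (hp2 : p ≠ 2) (T : Subgroup E) [hTn : T.Normal] (hTp : IsPGroup p T)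
    (ρ : (E ⧸ T) →* End (ZMod p) V) (π : T → V) (hπadd : ∀ a b, π (a * b) = π a + π b)
    (hπact : ∀ (g : E) (t t' : T), t'.1 = g * t.1 * g⁻¹ → ρ (g : E ⧸ T) (π t) = π t')
    (y₀ : E) (hy₀p : y₀ ^ p ∈ T) (hnil : (ρ (y₀ : E ⧸ T) - 1) ^ 2 = 0) (z : E ⧸ T)
    (hz : (orderOf z).Coprime p) (hzx : z * (y₀ : E ⧸ T) = (y₀ : E ⧸ T) * z) :
    ρ z (π ⟨y₀ ^ p, hy₀p⟩) = π ⟨y₀ ^ p, hy₀p⟩ := by
  classical
  have hpp : p.Prime := hp.out
  let mk := QuotientGroup.mk' T
  have hmk : Function.Surjective mk := QuotientGroup.mk'_surjective T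
  set xb : E ⧸ T := (y₀ : E ⧸ T) with hxb
  obtain ⟨z', hz', hz'c⟩ := exists_lift_coprime (p := p) mk hmk z hz
  let M : Subgroup E := (Subgroup.zpowers xb).comap mk
  have hTM : T ≤ M := by
    intro t ht
    have h1 : mk t = 1 := (QuotientGroup.eq_one_iff t).mpr ht
    change mk t ∈ Subgroup.zpowers xb
    rw [h1]
    exact Subgroup.one_mem _
  have hy₀M : y₀ ∈ M := Subgroup.mem_zpowers xb
  have hxbp : xb ^ p = 1 := by
    rw [hxb, ← QuotientGroup.mk_pow]
    exact (QuotientGroup.eq_one_iff _).mpr hy₀p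
  have hMp : IsPGroup p M := by
    rintro ⟨m, hm⟩
    have h1 : mk m ∈ Subgroup.zpowers xb := hm
    obtain ⟨i, hi⟩ := (isOfFinOrder_of_finite xb).mem_powers_iff_mem_zpowers.mpr h1
    have h2 : mk (m ^ p) = 1 := by
      rw [map_pow, ← hi]
      change (xb ^ i) ^ p = 1
      rw [← pow_mul, mul_comm, pow_mul, hxbp, one_pow]
    have h3 : m ^ p ∈ T := (QuotientGroup.eq_one_iff _).mp h2
    obtain ⟨e, he⟩ := hTp ⟨_, h3⟩
    refine ⟨e + 1, Subtype.ext ?_⟩
    have h4 : (m ^ p) ^ p ^ e = 1 := congrArg Subtype.val he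
    change m ^ p ^ (e + 1) = 1
    rw [pow_succ', pow_mul]
    exact h4
  let A₀ : Subgroup E := Subgroup.zpowers z'
  have hcomm : ∀ b ∈ A₀, mk b * xb = xb * mk b := by
    intro b hb
    obtain ⟨i, rfl⟩ := (isOfFinOrder_of_finite z').mem_powers_iff_mem_zpowers.mpr hb
    have h1 : Commute (mk z') xb := by
      rw [hz']
      exact hzx
    exact (h1.pow_left i).eq
  have hA₀M : A₀ ≤ Subgroup.normalizer (M : Set E) := by
    intro b hb
    apply Cfsg.Agent.Lib.PReduced.SFourSection.mem_normalizer_of_forall_conj_mem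
    intro m hm
    have h1 : Commute (mk b) xb := hcomm b hb
    have e : mk (b * m * b⁻¹) = mk b * mk m * (mk b)⁻¹ := by
      simp only [map_mul, map_inv]
    have key : ∀ i : ℕ, mk b * xb ^ i * (mk b)⁻¹ = xb ^ i := by
      intro i
      rw [(h1.pow_right i).eq, mul_inv_cancel_right]
    change mk m ∈ Subgroup.zpowers xb at hm
    obtain ⟨i, hi⟩ := (isOfFinOrder_of_finite xb).mem_powers_iff_mem_zpowers.mpr hm
    change mk (b * m * b⁻¹) ∈ Subgroup.zpowers xb
    rw [e, ← hi]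
    simp only
    rw [key]
    exact Subgroup.pow_mem _ (Subgroup.mem_zpowers _) _
  have hA₀T : A₀ ≤ Subgroup.normalizer (T : Set E) := by
    rw [Subgroup.normalizer_eq_top]
    exact le_top
  have hMT : M ≤ Subgroup.normalizer (T : Set E) := by
    rw [Subgroup.normalizer_eq_top]
    exact le_top
  have hcop : (Nat.card A₀).Coprime (Nat.card M) := by
    obtain ⟨k, hk⟩ := IsPGroup.iff_card.mp hMp
    rw [Nat.card_zpowers, hk]
    exact Nat.Coprime.pow_right _ hz'c
  have hsolv : Group.IsSolvable A₀ := by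
    infer_instance
  obtain ⟨c, hc, hct⟩ := Cfsg.Agent.Lib.Coprime.Action.exists_fixed_of_fixed_mod T hA₀M hcop
    (Or.inl hsolv) hTM hMT hA₀T hy₀M (by
      intro b hb
      rw [← QuotientGroup.eq_one_iff]
      change mk (b * y₀ * b⁻¹ * y₀⁻¹) = 1
      simp only [map_mul, map_inv]
      have h1 : mk y₀ = xb := rfl
      rw [h1, hcomm b hb]
      group)
  have hcz : z' * c = c * z' := by
    have h1 := Subgroup.mem_centralizer_iff.mp hc.2 z' (Subgroup.mem_zpowers z')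
    exact h1
  -- `c = t₂ y₀`
  let t₂ : T := ⟨y₀ * (y₀⁻¹ * c) * y₀⁻¹, hTn.conj_mem _ hct y₀⟩
  have hc2 : c = t₂.1 * y₀ := by
    change c = y₀ * (y₀⁻¹ * c) * y₀⁻¹ * y₀
    group
  have hcmk : ((c : E) : E ⧸ T) = xb := by
    rw [hc2, QuotientGroup.mk_mul, (QuotientGroup.eq_one_iff _).mpr t₂.2, one_mul]
  have hcp : c ^ p ∈ T := by
    rw [← QuotientGroup.eq_one_iff, QuotientGroup.mk_pow, hcmk, hxbp]
  have hwm : (t₂.1 * y₀) ^ p * (y₀ ^ p)⁻¹ ∈ T := by
    rw [← hc2]
    exact T.mul_mem hcp (T.inv_mem hy₀p)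
  let τ : End (ZMod p) V := ρ xb
  have hnorm := Wreath.norm_formula (F := ZMod p) T π hπadd τ y₀ (by
    intro b b' h
    exact (hπact y₀ b b' h).symm) t₂ p ⟨_, hwm⟩ rfl
  have hsum : ∑ i ∈ Finset.range p, (τ ^ i) (π t₂) = 0 := by
    have h1 := sum_pow_eq (K := ZMod p) (p := p) τ 1
    rw [pow_one] at h1
    have h2 : (τ - 1) ^ (p - 1) = 0 := by
      refine pow_eq_zero_of_le ?_ hnil
      have := hpp.two_le
      omega
    rw [h2] at h1
    have h3 := LinearMap.congr_fun h1 (π t₂)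
    simpa [LinearMap.sum_apply] using h3
  rw [hsum] at hnorm
  have hcp2 : (⟨c ^ p, hcp⟩ : T) = ⟨_, hwm⟩ * ⟨y₀ ^ p, hy₀p⟩ := by
    apply Subtype.ext
    change c ^ p = (t₂.1 * y₀) ^ p * (y₀ ^ p)⁻¹ * y₀ ^ p
    rw [← hc2]
    group
  have hπc : π ⟨c ^ p, hcp⟩ = π ⟨y₀ ^ p, hy₀p⟩ := by
    rw [hcp2, hπadd, hnorm, zero_add]
  have h5 := hπact z' ⟨c ^ p, hcp⟩ ⟨c ^ p, hcp⟩ (by
    change c ^ p = z' * c ^ p * z'⁻¹
    have h6 : Commute z' (c ^ p) := (show Commute z' c from hcz).pow_right p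
    rw [h6.eq, mul_inv_cancel_right])
  have h6 : ((z' : E) : E ⧸ T) = z := hz'
  rw [h6, hπc] at h5
  exact h5

/-- A `3`-element inverted by an involution in the quotient by a normal `2`-subgroup gives `S₄`. -/
theorem involves_of_inverted (T : Subgroup E) [hTn : T.Normal] (hT : IsPGroup 2 T)
    (hC : ∀ e : E, (∀ t ∈ T, e * t = t * e) → e ∈ T) (x t : E ⧸ T) (hx : x * x = 1) (hx1 : x ≠ 1)
    (h1 : t ≠ 1) (h3 : t ^ 3 = 1) (hi : x * t * x⁻¹ = t⁻¹) :
    Cfsg.Involves (Equiv.Perm (Fin 4)) E := by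
  classical
  let K : Subgroup (E ⧸ T) := Subgroup.closure {t, x}
  have htK : t ∈ K := Subgroup.subset_closure (by simp)
  have hxK : x ∈ K := Subgroup.subset_closure (by simp)
  let a : K := ⟨t, htK⟩
  let b : K := ⟨x, hxK⟩
  have hgen : Subgroup.closure ({a, b} : Set K) = ⊤ := by
    apply Subgroup.map_injective K.subtype_injective
    rw [MonoidHom.map_closure, ← MonoidHom.range_eq_map, Subgroup.range_subtype]
    have : (K.subtype '' ({a, b} : Set K)) = {t, x} := by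
      rw [Set.image_pair]
      rfl
    rw [this]
  obtain ⟨ι⟩ := Cfsg.Agent.Lib.PReduced.DihedralSection.nonempty_dihedral_of_closure (p := 3)
    (a := a) (b := b) (by decide) (fun h => h1 (congrArg Subtype.val h))
    (Subtype.ext h3) (Subtype.ext hx) (fun h => hx1 (congrArg Subtype.val h))
    (Subtype.ext hi) hgen
  let mk := QuotientGroup.mk' T
  have hmk : Function.Surjective mk := QuotientGroup.mk'_surjective T
  let X : Subgroup E := K.comap mk
  let π₀ : X →* DihedralGroup 3 := ι.toMonoidHom.comp (mk.subgroupComap K)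
  have hπ₀ : Function.Surjective π₀ :=
    ι.surjective.comp (mk.subgroupComap_surjective_of_surjective K hmk)
  obtain ⟨u, v, hu, hv, huv, hπv⟩ := Cfsg.Agent.Lib.PReduced.SFourSection.exists_inverted_of_surj
    (p := 3) (by decide) π₀ hπ₀
  have hTX : T ≤ X := by
    intro s hs
    have h4 : mk s = 1 := (QuotientGroup.eq_one_iff s).mpr hs
    change mk s ∈ K
    rw [h4]
    exact K.one_mem
  have hQp : IsPGroup 2 (T.subgroupOf X) := by
    rintro ⟨s, hs⟩
    obtain ⟨k, hk⟩ := hT ⟨s.1, hs⟩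
    refine ⟨k, Subtype.ext (Subtype.ext ?_)⟩
    have h9 : s.1 ^ 2 ^ k = 1 := congrArg (fun z : T => z.1) hk
    exact h9
  have hvC : v ∉ Subgroup.centralizer ((T.subgroupOf X : Subgroup X) : Set X) := by
    intro hc
    apply hπv
    have h5 : v.1 ∈ T := by
      apply hC
      intro s hs
      have h6 := Subgroup.mem_centralizer_iff.mp hc ⟨s, hTX hs⟩ hs
      exact (congrArg Subtype.val h6).symm
    have h7 : mk.subgroupComap K v = 1 := by
      apply Subtype.ext
      exact (QuotientGroup.eq_one_iff v.1).mpr h5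
    change ι (mk.subgroupComap K v) = 1
    rw [h7, map_one]
  have h8 := Cfsg.Agent.Lib.PReduced.SFourSection.involves_sfour_of_action (T.subgroupOf X) hQp
    hu hv huv hvC
  exact Cfsg.Agent.Lib.PReduced.Sections.involves_of_injective X.subtype X.subtype_injective h8

/-- Non-zero scalars in `ZMod 2` or `ZMod 3` are `1` or `-1`. -/
theorem scalar_cases {p : ℕ} (h : p = 2 ∨ p = 3) (s : ZMod p) (hs : s ≠ 0) : s = 1 ∨ s = -1 := by
  rcases h with rfl | rfl <;> revert s <;> decide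

/-- Non-zero scalars in `ZMod 2` are `1`. -/
theorem scalar_two {p : ℕ} (h : p = 2) (s : ZMod p) (hs : s ≠ 0) : s = 1 := by
  subst h
  revert s
  decide

/-- **No transvections**: an element of the quotient by `O_p` induced by a `p`-element `y₀`, acting
as a transvection with centre the image of `y₀ ^ p`.  -/
theorem no_transvection [FiniteDimensional (ZMod p) V] (hS : Cfsg.IsPSolvable p E)
    (ρ : (E ⧸ Cfsg.pCore p E) →* End (ZMod p) V) (hinj : Function.Injective ρ)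
    (π : Cfsg.pCore p E → V) (hπadd : ∀ a b, π (a * b) = π a + π b)
    (hπsurj : Function.Surjective π)
    (hπact : ∀ (g : E) (t t' : Cfsg.pCore p E), t'.1 = g * t.1 * g⁻¹ →
      ρ (g : E ⧸ Cfsg.pCore p E) (π t) = π t')
    (y₀ : E) (hy₀p : y₀ ^ p ∈ Cfsg.pCore p E) (hy₀ : y₀ ∉ Cfsg.pCore p E)
    (hrank : ∀ v, ∃ c : ZMod p, ρ (y₀ : E ⧸ Cfsg.pCore p E) v - v = c • π ⟨y₀ ^ p, hy₀p⟩) :
    p = 2 ∧ Cfsg.Involves (Equiv.Perm (Fin 4)) E := by
  classical
  have hpp : p.Prime := hp.out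
  let T := Cfsg.pCore p E
  have hTp : IsPGroup p T := pCore_isPGroup
  let mk := QuotientGroup.mk' T
  have hmk : Function.Surjective mk := QuotientGroup.mk'_surjective T
  have hS₂ : Cfsg.IsPSolvable p (E ⧸ T) := isPSolvable_of_surjective mk hmk hS
  have hOp : Cfsg.pCore p (E ⧸ T) = ⊥ := pCore_quotient_eq_bot
  obtain ⟨xb, hxb⟩ : ∃ xb : E ⧸ T, xb = (y₀ : E ⧸ T) := ⟨_, rfl⟩
  obtain ⟨a, ha⟩ : ∃ a : T, a = ⟨y₀ ^ p, hy₀p⟩ := ⟨_, rfl⟩
  rw [← hxb, ← ha] at hrank
  obtain ⟨ab, hab⟩ : ∃ ab : V, ab = π a := ⟨_, rfl⟩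
  rw [← hab] at hrank
  have hxb1 : xb ≠ 1 := by
    rw [hxb]
    exact fun h => hy₀ ((QuotientGroup.eq_one_iff _).mp h)
  have hxbp : xb ^ p = 1 := by
    rw [hxb, ← QuotientGroup.mk_pow]
    exact (QuotientGroup.eq_one_iff _).mpr hy₀p
  have hord : orderOf xb = p := orderOf_eq_prime hxbp hxb1
  have ha0 : ab ≠ 0 := by
    intro h
    apply hxb1
    apply hinj
    rw [map_one]
    ext v
    obtain ⟨c, hc⟩ := hrank v
    rw [h, smul_zero, sub_eq_zero] at hc
    simpa using hc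
  have hfix : ρ xb ab = ab := by
    rw [hxb, hab]
    refine hπact y₀ a a ?_
    rw [ha]
    change y₀ ^ p = y₀ * y₀ ^ p * y₀⁻¹
    rw [(Commute.refl y₀).pow_right p |>.eq, mul_inv_cancel_right]
  obtain ⟨φ, hφa, hφ⟩ := exists_functional (ρ xb) ab ha0 hrank hfix
  have hnil : (ρ xb - 1) ^ 2 = 0 := by
    have h1 : ∀ v, (ρ xb - 1) v = φ v • ab := by
      intro v
      rw [LinearMap.sub_apply, hφ, Module.End.one_apply, add_sub_cancel_left]
    ext v
    rw [pow_two, Module.End.mul_apply, h1 v, h1, map_smul, hφa]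
    simp
  have hple : p ≤ 3 := by
    rcases Exponent.thmB_rep hS₂ hOp ρ hinj xb 0 (by simpa using hord) 2 hnil with h |
      ⟨q, n₀, m, Q, hq, hqp, hQ, hnc, h1, h2, h3, h4, h5⟩
    · have : p ≤ 2 := by simpa using h
      omega
    · have hn₀ : n₀ = 1 := by omega
      rw [hn₀] at h5
      simp only [zero_add, Nat.sub_self, pow_zero, one_mul, pow_one] at h5
      omega
  have hp23 : p = 2 ∨ p = 3 := by
    have h2 := hpp.two_le
    omega
  -- the `p'`-core
  let L := Cfsg.pPrimeCore p (E ⧸ T)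
  have hLn : L.Normal := inferInstanceAs (Cfsg.pPrimeCore p (E ⧸ T)).Normal
  have hxL : xb ∉ L := by
    intro h
    have h1 := orderOf_coprime_of_mem_pPrimeCore h
    rw [hord] at h1
    exact hpp.one_lt.ne' (by simpa using h1)
  obtain ⟨g, hgL, hgx⟩ : ∃ g ∈ L, g * xb ≠ xb * g := by
    by_contra hall
    push Not at hall
    apply hxL
    apply Reduction.centralizer_pPrimeCore_le_of_isPSolvable hS₂ hOp
    apply Subgroup.mem_centralizer_iff.mpr
    intro g hg
    exact hall g hg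
  have htL : ∀ g ∈ L, xb⁻¹ * (g * xb * g⁻¹) ∈ L := by
    intro g hg
    have h1 : xb⁻¹ * g * xb ∈ L := by
      have := hLn.conj_mem g hg xb⁻¹
      rwa [inv_inv] at this
    have e : xb⁻¹ * (g * xb * g⁻¹) = (xb⁻¹ * g * xb) * g⁻¹ := by group
    rw [e]
    exact L.mul_mem h1 (L.inv_mem hg)
  have htc : ∀ g ∈ L, (orderOf (xb⁻¹ * (g * xb * g⁻¹))).Coprime p :=
    fun g hg => orderOf_coprime_of_mem_pPrimeCore (htL g hg)
  have hμ : φ (ρ g⁻¹ ab) ≠ 0 := by
    intro hμ
    have h1 := conj_eq_of_mu_zero ρ xb g ab φ hinj hφa hφ hμ (htc g hgL)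
    apply hgx
    calc g * xb = g * xb * g⁻¹ * g := by group
      _ = xb * g := by rw [h1]
  have hl : φ (ρ g ab) ≠ 0 := by
    intro hl
    have h1 := conj_eq_of_mu_zero ρ xb g⁻¹ ab φ hinj hφa hφ (by rwa [inv_inv]) (htc g⁻¹ (L.inv_mem hgL))
    apply hgx
    calc g * xb = g * (g⁻¹ * xb * g⁻¹⁻¹) := by rw [h1]
      _ = xb * g := by group
  set t := xb⁻¹ * (g * xb * g⁻¹) with ht
  let φ' : V →ₗ[ZMod p] ZMod p := φ ∘ₗ (ρ g⁻¹)
  have hφ'_def : ∀ v, φ' v = φ (ρ g⁻¹ v) := fun v => rfl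
  have hT : ∀ v, ρ t v = v + φ' v • ρ g ab - (φ v + φ' v * φ (ρ g ab)) • ab :=
    t_apply ρ xb g ab φ hφa hφ
  have hφ'a' : φ' (ρ g ab) = 0 := by
    rw [hφ'_def, rho_inv_apply, hφa]
  have hC : ∀ e : E, (∀ s ∈ T, e * s = s * e) → e ∈ T := by
    intro e he
    have h1 : ρ (e : E ⧸ T) = 1 := by
      ext v
      obtain ⟨s, rfl⟩ := hπsurj v
      rw [hπact e s s (by
        change s.1 = e * s.1 * e⁻¹
        rw [he s.1 s.2, mul_inv_cancel_right]), Module.End.one_apply]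
    have h2 : (e : E ⧸ T) = 1 := hinj (by rw [h1, map_one])
    exact (QuotientGroup.eq_one_iff _).mp h2
  have hs0 : φ (ρ g ab) * φ' ab ≠ 0 := mul_ne_zero hl hμ
  have hsix : φ (ρ g ab) * φ' ab = 1 → t ^ 6 = 1 ∧ ρ t ab = φ' ab • ρ g ab ∧
      (ρ t ^ 2) (ρ g ab) = (- φ (ρ g ab)) • ab := by
    intro hs
    obtain ⟨h1, h2, h3⟩ := pair_six (ρ t) φ φ' ab (ρ g ab) hφa hφ'a' hT hs
    refine ⟨hinj ?_, h2, h3⟩
    rw [map_pow, h1, map_one]
  have htcop := htc g hgL
  rw [← ht] at htcop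
  rcases hp23 with hp2 | hp3
  · -- characteristic `2`
    refine ⟨hp2, ?_⟩
    have hs := scalar_two hp2 _ hs0
    obtain ⟨h6, hTa, -⟩ := hsix hs
    have htcop2 : (orderOf t).Coprime 2 := by
      have e : ∀ n, n = 2 → (orderOf t).Coprime n → (orderOf t).Coprime 2 := by
        rintro n rfl h
        exact h
      exact e p hp2 htcop
    have ht3 : t ^ 3 = 1 := by
      have h1 : orderOf t ∣ 2 * 3 := orderOf_dvd_of_pow_eq_one h6
      exact orderOf_dvd_iff_pow_eq_one.mp (htcop2.dvd_of_dvd_mul_left h1)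
    have ht1 : t ≠ 1 := by
      intro h
      have h1 : ρ t ab = ab := by
        rw [h, map_one, Module.End.one_apply]
      rw [hTa] at h1
      have h2 := congrArg φ h1
      rw [map_smul, hφa, smul_eq_mul] at h2
      exact mul_ne_zero hμ hl h2
    have hxx : xb * xb = 1 := by
      have e : ∀ n, n = 2 → xb ^ n = 1 → xb * xb = 1 := by
        rintro n rfl h
        rwa [pow_two] at h
      exact e p hp2 hxbp
    have hT2 : IsPGroup 2 T := by
      have e : ∀ n, n = 2 → IsPGroup n T → IsPGroup 2 T := by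
        rintro n rfl h
        exact h
      exact e p hp2 hTp
    have hxi : xb⁻¹ = xb := inv_eq_of_mul_eq_one_left hxx
    have hxg : (g * xb * g⁻¹) * (g * xb * g⁻¹) = 1 := by
      calc (g * xb * g⁻¹) * (g * xb * g⁻¹) = g * (xb * xb) * g⁻¹ := by group
        _ = 1 := by rw [hxx]; group
    have hgi : (g * xb * g⁻¹)⁻¹ = g * xb * g⁻¹ := inv_eq_of_mul_eq_one_left hxg
    have hinv : xb * t * xb⁻¹ = t⁻¹ := by
      rw [ht, mul_inv_rev, inv_inv, hgi, hxi]
      calc xb * (xb * (g * xb * g⁻¹)) * xb = (xb * xb) * (g * xb * g⁻¹) * xb := by group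
        _ = g * xb * g⁻¹ * xb := by rw [hxx, one_mul]
    exact involves_of_inverted T hT2 hC xb t hxx hxb1 ht1 ht3 hinv
  · -- characteristic `3`
    exfalso
    have h3 : (3 : ZMod p) = 0 := by
      have h1 : ((3 : ℕ) : ZMod p) = 0 := (ZMod.natCast_eq_zero_iff 3 p).mpr (by rw [hp3])
      exact_mod_cast h1
    have htcop3 : (orderOf t).Coprime 3 := by
      have e : ∀ n, n = 3 → (orderOf t).Coprime n → (orderOf t).Coprime 3 := by
        rintro n rfl h
        exact h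
      exact e p hp3 htcop
    rcases scalar_cases (Or.inr hp3) _ hs0 with hs | hs
    · obtain ⟨h6, -, hT2⟩ := hsix hs
      have ht2 : t ^ 2 = 1 := by
        have h1 : orderOf t ∣ 3 * 2 := orderOf_dvd_of_pow_eq_one h6
        exact orderOf_dvd_iff_pow_eq_one.mp (htcop3.dvd_of_dvd_mul_left h1)
      have h1 : (ρ t ^ 2) (ρ g ab) = ρ g ab := by
        rw [← map_pow, ht2, map_one, Module.End.one_apply]
      rw [hT2] at h1
      have h2 := congrArg φ h1
      rw [map_smul, hφa, smul_zero] at h2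
      exact hl h2.symm
    · obtain ⟨h1, h2, h4⟩ := pair_sq h3 (ρ t) φ φ' ab (ρ g ab) hφa hφ'a' hT hs
      have hzL : t ^ 2 ∈ L := L.pow_mem (htL g hgL) 2
      have hzc := orderOf_coprime_of_mem_pPrimeCore hzL
      have hzx : t ^ 2 * xb = xb * t ^ 2 := by
        apply hinj
        rw [map_mul, map_mul, map_pow]
        apply end_ext φ φ' ab (ρ g ab) hφa hφ'a' hl hμ
        · rw [Module.End.mul_apply, Module.End.mul_apply, hfix, h1, map_neg, hfix]
        · rw [Module.End.mul_apply, Module.End.mul_apply, h2, hφ, map_add, map_smul, h1, h2, map_neg,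
            hφ, smul_neg, neg_add]
        · intro w hw1 hw2
          rw [Module.End.mul_apply, Module.End.mul_apply, h4 w hw1 hw2, hφ, hw1, zero_smul, add_zero,
            h4 w hw1 hw2]
      have hp2' : p ≠ 2 := by omega
      have hnil' : (ρ (y₀ : E ⧸ T) - 1) ^ 2 = 0 := by
        rw [← hxb]
        exact hnil
      have hzx' : t ^ 2 * (y₀ : E ⧸ T) = (y₀ : E ⧸ T) * t ^ 2 := by
        rw [← hxb]
        exact hzx
      have h5 := fixed_of_commuting hp2' T hTp ρ π hπadd hπact y₀ hy₀p hnil' (t ^ 2) hzc hzx'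
      rw [← ha, ← hab, map_pow, h1] at h5
      have h6 : (2 : ZMod p) • ab = 0 := by
        rw [two_smul]
        nth_rewrite 1 [← h5]
        simp
      have h7 : (2 : ZMod p) ≠ 0 := by
        intro h8
        have h9 : (1 : ZMod p) = 0 := by
          linear_combination h3 - h8
        exact one_ne_zero h9
      exact ha0 ((smul_eq_zero.mp h6).resolve_left h7)

/-- Cyclic normal subgroups of Sylow subgroups lie in `O_p`, if `O_{p'} = 1`. -/
theorem le_pCore_of_cyclic_normal {E : Type u} [Group E] [Finite E] (hS : Cfsg.IsPSolvable p E)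
    (hred : Cfsg.pPrimeCore p E = ⊥) (P : Sylow p E) (A : Subgroup E)
    (hAP : A ≤ (P : Subgroup E)) (hAn : (P : Subgroup E) ≤ Subgroup.normalizer (A : Set E))
    (hA : IsCyclic A) (h : p ≠ 2 ∨ ¬ Cfsg.Involves (Equiv.Perm (Fin 4)) E) :
    A ≤ Cfsg.pCore p E := by
  classical
  by_contra hAT
  have hpp : p.Prime := hp.out
  let T := Cfsg.pCore p E
  have hTn : T.Normal := inferInstanceAs (Cfsg.pCore p E).Normal
  have hTP : T ≤ (P : Subgroup E) := pCore_le_sylow P
  obtain ⟨V, i1, i2, i3, ρ, π, hinj, hπadd, hπsurj, hπact, -⟩ :=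
    Exponent.exists_faithful_module hS hred
  obtain ⟨y', hy'⟩ := IsCyclic.exists_generator (α := A)
  let y : E := y'.1
  have hyA : y ∈ A := y'.2
  have hpow : ∀ z ∈ A, ∃ i : ℕ, z = y ^ i := by
    intro z hz
    obtain ⟨i, hi⟩ := (isOfFinOrder_of_finite y').mem_powers_iff_mem_zpowers.mpr (hy' ⟨z, hz⟩)
    refine ⟨i, ?_⟩
    have h1 : (y' ^ i).1 = z := congrArg Subtype.val hi
    rw [← h1]
    rfl
  have hyT : y ∉ T := by
    intro hy
    apply hAT
    intro z hz
    obtain ⟨i, rfl⟩ := hpow z hz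
    exact T.pow_mem hy i
  have hyb1 : (y : E ⧸ T) ≠ 1 := fun h1 => hyT ((QuotientGroup.eq_one_iff _).mp h1)
  obtain ⟨n, hn⟩ : ∃ n : ℕ, y ^ p ^ n = 1 := by
    obtain ⟨n, hn⟩ := P.2 ⟨y, hAP hyA⟩
    exact ⟨n, congrArg Subtype.val hn⟩
  have hybp : (y : E ⧸ T) ^ p ^ n = 1 := by
    rw [← QuotientGroup.mk_pow, hn]
    rfl
  obtain ⟨k, -, hk⟩ := (Nat.dvd_prime_pow hpp).mp (orderOf_dvd_of_pow_eq_one hybp)
  have hk0 : k ≠ 0 := by
    rintro rfl
    rw [pow_zero] at hk
    exact hyb1 (orderOf_eq_one_iff.mp hk)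
  obtain ⟨j, rfl⟩ := Nat.exists_eq_succ_of_ne_zero hk0
  let y₀ : E := y ^ p ^ j
  have hy₀A : y₀ ∈ A := A.pow_mem hyA _
  have hy₀pe : y₀ ^ p = y ^ p ^ (j + 1) := by
    rw [pow_succ, pow_mul]
  have hy₀p : y₀ ^ p ∈ T := by
    rw [hy₀pe, ← QuotientGroup.eq_one_iff, QuotientGroup.mk_pow, ← Nat.succ_eq_add_one, ← hk,
      pow_orderOf_eq_one]
  have hy₀ : y₀ ∉ T := by
    intro h1
    have h2 : (y : E ⧸ T) ^ p ^ j = 1 := by
      rw [← QuotientGroup.mk_pow]
      exact (QuotientGroup.eq_one_iff _).mpr h1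
    have h3 := orderOf_dvd_of_pow_eq_one h2
    rw [hk] at h3
    have h4 := (Nat.pow_dvd_pow_iff_le_right hpp.one_lt).mp h3
    omega
  have hAT' : ∀ z ∈ A, z ∈ T → ∃ m : ℕ, z = (y₀ ^ p) ^ m := by
    intro z hz hzT
    obtain ⟨i, rfl⟩ := hpow z hz
    have h1 : (y : E ⧸ T) ^ i = 1 := by
      rw [← QuotientGroup.mk_pow]
      exact (QuotientGroup.eq_one_iff _).mpr hzT
    have h2 := orderOf_dvd_of_pow_eq_one h1
    rw [hk] at h2
    obtain ⟨m, rfl⟩ := h2
    exact ⟨m, by rw [hy₀pe, pow_mul]⟩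
  have hπ1 : π 1 = 0 := by
    have := hπadd 1 1
    rw [mul_one] at this
    simpa using this
  have hπpow : ∀ (a : T) (m : ℕ), π (a ^ m) = m • π a := by
    intro a m
    induction m with
    | zero => simpa using hπ1
    | succ m ih => rw [pow_succ, hπadd, ih, succ_nsmul]
  have hrank : ∀ v, ∃ c : ZMod p, ρ (y₀ : E ⧸ Cfsg.pCore p E) v - v = c • π ⟨y₀ ^ p, hy₀p⟩ := by
    intro v
    obtain ⟨t, rfl⟩ := hπsurj v
    have hm : y₀ * t.1 * y₀⁻¹ ∈ T := hTn.conj_mem _ t.2 y₀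
    have h1 := hπact y₀ t ⟨_, hm⟩ rfl
    have hw : y₀ * t.1 * y₀⁻¹ * t.1⁻¹ ∈ T := T.mul_mem hm (T.inv_mem t.2)
    have hwA : y₀ * t.1 * y₀⁻¹ * t.1⁻¹ ∈ A := by
      have h2 : t.1 * y₀⁻¹ * t.1⁻¹ ∈ A :=
        (Subgroup.mem_normalizer_iff.mp (hAn (hTP t.2)) _).mp (A.inv_mem hy₀A)
      have e : y₀ * t.1 * y₀⁻¹ * t.1⁻¹ = y₀ * (t.1 * y₀⁻¹ * t.1⁻¹) := by group
      rw [e]
      exact A.mul_mem hy₀A h2
    obtain ⟨m, hm'⟩ := hAT' _ hwA hw
    have e : (⟨_, hm⟩ : T) = (⟨y₀ ^ p, hy₀p⟩ : T) ^ m * t := by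
      apply Subtype.ext
      have h3 : ((⟨y₀ ^ p, hy₀p⟩ : T) ^ m).1 = (y₀ ^ p) ^ m := rfl
      change y₀ * t.1 * y₀⁻¹ = ((⟨y₀ ^ p, hy₀p⟩ : T) ^ m).1 * t.1
      rw [h3, ← hm']
      group
    rw [h1, e, hπadd, hπpow, add_sub_cancel_right]
    exact ⟨(m : ZMod p), (Nat.cast_smul_eq_nsmul (ZMod p) m _).symm⟩
  obtain ⟨hp2, hI⟩ := no_transvection hS ρ hinj π hπadd hπsurj hπact y₀ hy₀p hy₀ hrank
  rcases h with h | h
  · exact h hp2
  · exact h hI

end group

/-- **Cyclic normal subgroups of Sylow subgroups** lie in `O_{p',p}`. -/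
theorem le_pPrimePCore_of_cyclic_normal {G : Type u} [Group G] [Finite G] {p : ℕ} [hp : Fact p.Prime]
    (hG : Cfsg.IsPSolvable p G) (P : Sylow p G) (A : Subgroup G) (hAP : A ≤ (P : Subgroup G))
    (hAn : (P : Subgroup G) ≤ Subgroup.normalizer (A : Set G)) (hA : IsCyclic A)
    (h : p ≠ 2 ∨ ¬ Cfsg.Involves (Equiv.Perm (Fin 4)) G) : A ≤ Cfsg.pPrimePCore p G := by
  classical
  let N := Cfsg.pPrimeCore p G
  let f := QuotientGroup.mk' N
  have hf : Function.Surjective f := QuotientGroup.mk'_surjective N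
  have hS₁ : Cfsg.IsPSolvable p (G ⧸ N) := isPSolvable_of_surjective f hf hG
  have hred : Cfsg.pPrimeCore p (G ⧸ N) = ⊥ := pPrimeCore_quotient_eq_bot
  let P₁ := P.mapSurjective hf
  have hP₁ : (P₁ : Subgroup (G ⧸ N)) = (P : Subgroup G).map f := Sylow.coe_mapSurjective _ _
  have hcyc : IsCyclic (A.map f) :=
    isCyclic_of_surjective (f.subgroupMap A) (f.subgroupMap_surjective A)
  have hmain := le_pCore_of_cyclic_normal hS₁ hred P₁ (A.map f) (by
    rw [hP₁]
    exact Subgroup.map_mono hAP) (by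
    rw [hP₁]
    rintro _ ⟨g, hg, rfl⟩
    apply Cfsg.Agent.Lib.PReduced.SFourSection.mem_normalizer_of_forall_conj_mem
    rintro _ ⟨a, ha, rfl⟩
    refine ⟨g * a * g⁻¹, (Subgroup.mem_normalizer_iff.mp (hAn hg) a).mp ha, ?_⟩
    simp only [map_mul, map_inv]) hcyc (by
    rcases h with h | h
    · exact Or.inl h
    · exact Or.inr fun hI => h (Cfsg.Agent.Lib.PReduced.Sections.involves_comap f hf hI))
  intro a ha
  exact hmain ⟨a, ha, rfl⟩

end Cfsg.Agent.Lib.HallHigman.Transvection
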